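import Mathlib
import Cfsg.Agent.Base
import Cfsg.Agent.Lib.Push.MP6
import Cfsg.Agent.Lib.Fusion.ParkTransfer

/-! FF-modules for groups minimal over a Baumann-type subgroup, `p` odd (helper90). -/

set_option autoImplicit false
set_option linter.unusedSectionVars false

namespace H90.GNT

open Subgroup H69 H68.Push Cfsg H59.MP
open H24 (upT loT)
open scoped MatrixGroups

variable {P V : Type*} [Group P] [AddCommGroup V] [DistribMulAction P V] [Finite P] [Finite V]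

/-- the subgroup `[u, A]` -/
def cu (A : Subgroup P) (u : V) : AddSubgroup V := AddSubgroup.closure {w | ∃ a ∈ A, w = a • u - u}

theorem mem_cu {A : Subgroup P} {a : P} (ha : a ∈ A) (u : V) : a • u - u ∈ cu A u :=
  AddSubgroup.subset_closure ⟨a, ha, rfl⟩

theorem cu_le {A : Subgroup P} {u : V} {W : AddSubgroup V} (h : ∀ a ∈ A, a • u - u ∈ W) :
    cu A u ≤ W := (AddSubgroup.closure_le _).2 (by rintro _ ⟨a, ha, rfl⟩; exact h a ha)

/-- Timmesfeld's inequality. -/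
theorem timm {A : Subgroup P} (hc : A ≤ 𝐂(A)) (u : V) :
    Nat.card A * Nat.card (fixS V A) ≤ Nat.card (A ⊓ fixP P (cu A u) : Subgroup P) *
      Nat.card (cu A u ⊔ fixS V A : AddSubgroup V) := by
  set W := cu A u with hW
  set Y := A ⊓ fixP P W with hY
  set H := fixS V A with hH
  have c1 : Nat.card (A ⧸ Y.subgroupOf A) ≤
      Nat.card ((W ⊔ H).map (QuotientAddGroup.mk' H)) := by
    have := card_le_of_rel (S := (Set.univ : Set (A ⧸ Y.subgroupOf A)))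
      (T := ((W ⊔ H).map (QuotientAddGroup.mk' H) : Set (V ⧸ H)))
      (fun q w => ∃ a : A, (a : A ⧸ Y.subgroupOf A) = q ∧
        QuotientAddGroup.mk' H ((a : P) • u - u) = w)
      (fun q _ => by
        obtain ⟨a, rfl⟩ := QuotientGroup.mk_surjective q
        exact ⟨_, ⟨_, AddSubgroup.mem_sup_left (mem_cu a.2 u), rfl⟩, a, rfl, rfl⟩)
      (by
        rintro _ - _ - _ ⟨a, rfl, rfl⟩ ⟨b, rfl, e⟩
        have e1 : (b : P) • u - (a : P) • u ∈ H := by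
          have := QuotientAddGroup.eq_iff_sub_mem.1 e
          rwa [sub_sub_sub_cancel_right] at this
        rw [QuotientGroup.eq, mem_subgroupOf]
        refine ⟨(a⁻¹ * b).2, (le_fixS_iff (A := zpowers ((a⁻¹ * b : A) : P))).1
          (cu_le fun c hc' => ?_) (mem_zpowers _)⟩
        rw [mem_fixS_zpowers, Subgroup.coe_mul, Subgroup.coe_inv, mul_smul,
          inv_smul_eq_iff, smul_sub, smul_sub, ← mul_smul, ← mul_smul,
          hc hc' _ b.2, hc hc' _ a.2, mul_smul, mul_smul,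
          sub_eq_sub_iff_sub_eq_sub, ← smul_sub]
        exact e1 c hc')
    rwa [Nat.card_univ] at this
  have c2 := card_map_mk_mul (le_sup_right : H ≤ W ⊔ H)
  have c3 := card_eq_card_quotient_mul_card_subgroup (Y.subgroupOf A)
  rw [card_subgroupOf (inf_le_left : Y ≤ A)] at c3
  rw [c3, ← c2]
  calc _ ≤ Nat.card ((W ⊔ H).map (QuotientAddGroup.mk' H)) * Nat.card Y * Nat.card H := by
        gcongr
    _ = _ := by ring

theorem timm_le {A : Subgroup P} (u : V) :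
    cu A u ⊔ fixS V A ≤ fixS V (A ⊓ fixP P (cu A u)) :=
  sup_le (le_fixS_iff.2 inf_le_right) (fixS_anti inf_le_left)

variable {p : ℕ} [hp : Fact p.Prime]

theorem mem_fixS_of_mem_cu (ht : ∀ v : V, p • v = 0) {A : Subgroup P} (hA : IsPGroup p A) {u : V}
    (hu : u ∈ cu A u ⊔ fixS V A) : u ∈ fixS V A := by
  by_contra h1
  have hn : A ≤ nrm P (cu A u ⊔ fixS V A) := fun a ha => mem_nrm_of fun w hw => by
    have h2 : cu A u ⊔ fixS V A ≤ (cu A u ⊔ fixS V A).comap (DistribSMul.toAddMonoidHom V a) :=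
      sup_le (cu_le fun b hb => by
        change a • (b • u - u) ∈ cu A u ⊔ fixS V A
        rw [smul_sub, ← mul_smul, ← sub_sub_sub_cancel_right _ _ u]
        exact AddSubgroup.mem_sup_left (sub_mem (mem_cu (A.mul_mem ha hb) u) (mem_cu ha u)))
        fun v hv => AddSubgroup.mem_sup_right (by change a • v ∈ fixS V A; rwa [hv a ha])
    exact h2 hw
  obtain ⟨W', w1, w2, w3⟩ := exists_lt_comm ht hA (X := fixS V A) (U := cu A u ⊔ fixS V A)
    (le_normalizer.trans (normalizer_le_nrm_fixS A)) hn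
    (lt_of_le_not_ge le_sup_right fun h2 => h1 (h2 hu))
  exact w2.not_ge (sup_le (cu_le fun a ha => w3 a ha u hu) w1)

variable [FaithfulSMul P V]

theorem exists_isMin' (ht : ∀ v : V, p • v = 0) {E : Subgroup P} (hE : IsPGroup p E)
    (hc : E ≤ 𝐂(E)) (h1 : E ≠ ⊥) (h2 : Nat.card V ≤ Nat.card E * Nat.card (fixS V E)) :
    ∃ A ≤ E, IsMin V p A ∧
      Nat.card E * Nat.card (fixS V E) ≤ Nat.card A * Nat.card (fixS V A) := by
  obtain ⟨B, ⟨hB1, hB2⟩, hB⟩ := Set.exists_max_image {B : Subgroup P | B ≤ E ∧ B ≠ ⊥}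
    (fun B => Nat.card B * Nat.card (fixS V B)) (Set.toFinite _) ⟨E, le_rfl, h1⟩
  obtain ⟨A, ⟨hA1, hA2, hA3⟩, hA⟩ := Set.Finite.exists_minimal (s := {A : Subgroup P | A ≤ E ∧ A ≠ ⊥ ∧
    Nat.card B * Nat.card (fixS V B) ≤ Nat.card A * Nat.card (fixS V A)}) (Set.toFinite _)
    ⟨B, hB1, hB2, le_rfl⟩
  have h3 := (hB E ⟨le_rfl, h1⟩).trans hA3
  have hmin : ∀ C ≤ A, C ≠ ⊥ → C ≠ A →
      Nat.card C * Nat.card (fixS V C) < Nat.card A * Nat.card (fixS V A) := fun C c1 c2 c3 => by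
    by_contra c4
    exact c3 (le_antisymm c1 (hA ⟨c1.trans hA1, c2, hA3.trans (not_lt.1 c4)⟩ c1))
  have hcA : A ≤ 𝐂(A) := (hA1.trans hc).trans (H69.centralizer_anti hA1)
  have hq : ∀ a ∈ A, ∀ u : V, a • (a • u - u) = a • u - u := fun a ha u => by
    have c5 := timm hcA u
    by_cases h4 : A ⊓ fixP P (cu A u) = A
    · exact (h4.ge ha).2 _ (mem_cu ha u)
    by_cases h5 : A ⊓ fixP P (cu A u) = ⊥
    · rw [h5, card_bot, one_mul] at c5
      have c6 := AddSubgroup.eq_top_of_le_card _ ((h2.trans h3).trans c5)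
      rw [mem_fixS_of_mem_cu ht (hE.to_le hA1) (c6.ge (AddSubgroup.mem_top u)) a ha, sub_self,
        smul_zero]
    · exact absurd (c5.trans (Nat.mul_le_mul_left _ (AddSubgroup.card_le_of_le (timm_le u))))
        (hmin _ inf_le_left h5 h4).not_ge
  refine ⟨A, hA1, ⟨hA2, H24.EA.iff_mem.2 ⟨fun a ha b hb => (hcA ha b hb).symm, fun a ha =>
    eq_of_smul_eq_smul (α := V) fun v => ?_⟩, h2.trans h3, hmin⟩, h3⟩
  rw [one_smul, ← sub_eq_zero, pow_smul_sub (hq a ha v), ht]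

variable {T M : Subgroup P} {y : V}

theorem noOver' (h : Hyp V p T M y) {E : Subgroup P} (hE : IsPGroup p E) (hc : E ≤ 𝐂(E)) :
    Nat.card E * Nat.card (fixS V E) ≤ Nat.card V := by
  by_contra h1
  have h2 := not_le.1 h1
  obtain ⟨A, -, h3, h4⟩ := exists_isMin' h.tors hE hc (by
    rintro rfl
    rw [card_bot, one_mul, fixS_bot, AddSubgroup.card_top] at h2
    exact h2.ne rfl) h2.le
  exact h1 (h4.trans (h.card_eq h3).ge)

theorem eq_zero_of_neg (ht : ∀ v : V, p • v = 0) (hp2 : p ≠ 2) {u : V} (h : -u = u) : u = 0 := by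
  obtain ⟨k, hk⟩ := hp.out.odd_of_ne_two hp2
  have h1 := ht u
  rwa [hk, add_smul, one_smul, mul_comm, mul_smul, two_smul, add_eq_zero_iff_neg_eq.2 h,
    smul_zero, zero_add] at h1

theorem two_lt_card {A : Subgroup P} (hA : IsMin V p A) (hp2 : p ≠ 2) : 2 < Nat.card A := by
  obtain ⟨n, hn⟩ := H24.EA.exists_card hA.ea
  have h1 := hp.out.two_le
  rcases n with _ | n
  · exact absurd (card_eq_one.1 hn) hA.ne
  · rw [hn, pow_succ]
    have := pow_pos hp.out.pos n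
    have : 3 ≤ p := by omega
    nlinarith

variable {F : Type*} [Field F] {A L : Subgroup P} {ρ : P → SL(2, F)} {ψ : V →+ (Fin 2 → F)}

theorem exists_inv (hP : Pt F A L ρ ψ) : ∃ t ∈ L, ∀ u ∈ comS V A, t • u = -u := by
  obtain ⟨t, ht, e⟩ := hP.exists_dg (l := -1) (neg_ne_zero.2 one_ne_zero)
  refine ⟨t, ht, fun u hu => ?_⟩
  have h1 : comS V A ≤ (DistribSMul.toAddMonoidHom V t + AddMonoidHom.id V).ker :=
    comS_le.2 fun a ha v => by
      obtain ⟨c, hc⟩ := hP.up a ha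
      have h2 : t * a * t⁻¹ = a := hP.eq_of (L.mul_mem (L.mul_mem ht (hP.le ha)) (L.inv_mem ht))
        (hP.le ha) (by rw [hP.dg_conj ht e ha hc, hc]; simp)
      have h3 : t • v + v ∈ fixS V L := hP.ker'.2 ⟨by simp [hP.dg0 ht e], by simp [hP.dg1 ht e]⟩
      have h4 := h3 a (hP.le ha)
      change t • (a • v - v) + (a • v - v) = 0
      rw [smul_sub, ← mul_smul, mul_inv_eq_iff_eq_mul.1 h2, mul_smul, sub_add_sub_comm, ← smul_add,
        h4, sub_self]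
  exact eq_neg_of_add_eq_zero_left (h1 hu)

theorem eq_of_cj_comm (hP : Pt F A L ρ ψ) (hA : A ≤ 𝐂(A)) {z : P} (hz : z ∈ L)
    (hc : A ^ᶜ z ≤ 𝐂(A)) : A ^ᶜ z = A := by
  by_contra h1
  refine hP.not_le_normalizer (le_normalizer_of_le_centralizer ?_)
  rw [← hP.gen hz fun h2 => h1 (cj_eq_of_mem_normalizer h2)]
  exact sup_le hA hc

/-- the data of a minimal offender in `T` and its partner -/
structure Par (p : ℕ) (T M : Subgroup P) (y : V) (A L : Subgroup P) (ρ : P → SL(2, F))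
    (ψ : V →+ (Fin 2 → F)) : Prop where
  hyp : Hyp V p T M y
  ne : p ≠ 2
  min : IsMin V p A
  le : A ≤ T
  pt : Pt F A L ρ ψ
  nle : ¬ L ≤ M
  tri : ∀ B, IsMin V p B → (∃ z ∈ L, B = A ^ᶜ z) ∨ L ≤ 𝐂(B)

theorem exists_par (h : Hyp V p T M y) (hp2 : p ≠ 2) (hA : IsMin V p A) (hAT : A ≤ T) :
    ∃ (L : Subgroup P) (F : Type) (_ : Field F) (_ : Fintype F) (ρ : P → SL(2, F))
      (ψ : V →+ (Fin 2 → F)), Par p T M y A L ρ ψ := by
  obtain ⟨L, F, _, _, ρ, ψ, ω, hP, h0, h1, hL⟩ := h.exists_big hA (two_lt_card hA hp2)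
  exact ⟨L, F, _, inferInstance, ρ, ψ, h, hp2, hA, hAT, hP, by simpa only [cj_one] using hL 1,
    fun B hB => h.tri hP h0 h1 hL hA (two_lt_card hA hp2) hB⟩

namespace Par

theorem comm (h : Par p T M y A L ρ ψ) : A ≤ 𝐂(A) := H24.EA.le_centralizer h.min.ea

theorem other (h : Par p T M y A L ρ ψ) {B : Subgroup P} (hB : IsMin V p B) (hBT : B ≤ T)
    (hne : B ≠ A) : L ≤ 𝐂(B) := (h.tri B hB).resolve_left (by
  rintro ⟨z, hz, rfl⟩
  exact hne (eq_of_cj_comm h.pt h.comm hz (h.hyp.comm_of_le h.hyp.syl.isP hB h.min hBT h.le)))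

theorem comS_le_fix (h : Par p T M y A L ρ ψ) {B : Subgroup P} (hB : IsMin V p B)
    (hc : L ≤ 𝐂(B)) : comS V B ≤ fixS V L := by
  obtain ⟨x, hx, e⟩ := h.pt.exists_wk
  rw [← h.pt.sup_eq hx e, fixS_sup]
  exact le_inf (h.hyp.kil hB h.min (le_centralizer_iff.1 (h.pt.le.trans hc)))
    (h.hyp.kil hB (h.min.cj x) (le_centralizer_iff.1 ((cj_le_of_mem h.pt.le hx).trans hc)))

theorem smul_mem (h : Par p T M y A L ρ ψ) {s : P} (hs : s ∈ T) (hn : s ∉ 𝐍(A)) {u : V}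
    (hu : u ∈ comS V A) : s • u ∈ fixS V L :=
  h.comS_le_fix (h.min.cj s) (h.other (h.min.cj s) (cj_le_of_mem h.le hs)
    fun e => hn (cj_eq_self_iff.1 e)) (smul_mem_comS_cj s hu)

theorem eq_zero (h : Par p T M y A L ρ ψ) {u : V} (hu : u ∈ comS V A) (h1 : u ∈ fixS V L) :
    u = 0 := by
  obtain ⟨t, ht, e⟩ := exists_inv h.pt
  exact eq_zero_of_neg h.hyp.tors h.ne ((e u hu).symm.trans (h1 t ht))

theorem exists_fix (h : Par p T M y A L ρ ψ) {K : Subgroup P} (hK : K ≤ T) (hn : K ≤ 𝐍(A)) :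
    ∃ u ∈ comS V A, u ≠ 0 ∧ u ∈ fixS V K := by
  obtain ⟨u, h1, h2, h3⟩ := exists_fix_mod h.hyp.tors (h.hyp.syl.isP.to_le hK) (W := ⊥)
    (U := comS V A) (fun g _ w => by simp [smul_eq_zero_iff_eq]) (hn.trans (normalizer_le_nrm_comS A))
    (bot_lt_iff_ne_bot.2 fun e => h.min.ne (eq_bot_of_fixS (V := V) (eq_top_iff.2 fun v _ a ha =>
      sub_eq_zero.1 (e.le (mem_comS ha v)))))
  exact ⟨u, h1, h2, fun k hk => sub_eq_zero.1 (h3 k hk)⟩

/-- abelian offenders normalize the minimal offenders -/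
theorem le_normalizer_of_off (h : Par p T M y A L ρ ψ) {D : Subgroup P} (hD : D ≤ T)
    (hc : D ≤ 𝐂(D)) (ho : Nat.card V ≤ Nat.card D * Nat.card (fixS V D)) : D ≤ 𝐍(A) := by
  obtain ⟨u, h1, h2, h3⟩ := h.exists_fix (K := D ⊓ 𝐍(A)) (inf_le_left.trans hD) inf_le_right
  have key : D ⊓ fixP P (cu D u) ≤ 𝐍(A) := fun d hd => by
    by_contra hn
    obtain ⟨k, hk⟩ := isPGroup_iff_mem.1 h.hyp.syl.isP d (hD hd.1)
    have hn2 : d * d ∉ 𝐍(A) := fun h4 => hn (H92.mem_of_pow_mem hk (n := 2) (fun h2 => h.ne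
      ((Nat.prime_dvd_prime_iff_eq hp.out Nat.prime_two).1 h2)) (by rwa [pow_two]))
    have h4 := hd.2 _ (mem_cu hd.1 u)
    have h5 := h.smul_mem (hD hd.1) hn h1
    have h6 := sub_mem h5 (sub_mem (h.smul_mem (T.mul_mem (hD hd.1) (hD hd.1)) hn2 h1) h5)
    rw [mul_smul, ← smul_sub, h4, sub_sub_cancel] at h6
    exact h2 (h.eq_zero h1 h6)
  have hYp := h.hyp.syl.isP.to_le ((inf_le_left : D ⊓ fixP P (cu D u) ≤ D).trans hD)
  have c1 := noOver' h.hyp hYp ((inf_le_left.trans hc).trans (H69.centralizer_anti inf_le_left))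
  have c2 := AddSubgroup.eq_of_le_of_card_ge (timm_le (A := D) u)
    (Nat.le_of_mul_le_mul_left (c1.trans (ho.trans (timm hc u))) Nat.card_pos)
  have c3 := mem_fixS_of_mem_cu h.hyp.tors (h.hyp.syl.isP.to_le hD)
    (c2.ge (fixS_anti (le_inf inf_le_left key) h3))
  refine le_trans (le_inf le_rfl (le_fixS_iff.1 (cu_le fun d hd => ?_))) key
  rw [c3 d hd, sub_self]; exact zero_mem _

theorem le_normalizer_L (h : Par p T M y A L ρ ψ) {b : P} (hb : b ∈ 𝐍(A)) : b ∈ 𝐍(L) := by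
  obtain ⟨x, hx, e⟩ := h.pt.exists_wk
  refine mem_normalizer_of_cj_le ?_
  conv_lhs => rw [← h.pt.sup_eq hx e, cj_sup, cj_eq_of_mem_normalizer hb]
  refine sup_le h.pt.le ?_
  rcases h.tri _ ((h.min.cj x).cj b) with ⟨z, hz, e'⟩ | h1
  · rw [e']; exact cj_le_of_mem h.pt.le hz
  · refine absurd (le_normalizer_of_le_centralizer ?_) h.pt.not_le_normalizer
    have h2 := cj_mono b⁻¹ (le_centralizer_iff.1 (h.pt.le.trans h1))
    rw [cj_centralizer, cj_eq_of_mem_normalizer (inv_mem hb), cj_cj_inv] at h2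
    rw [← h.pt.sup_eq hx e]
    exact sup_le h.comm h2

theorem mem_centralizer_L (h : Par p T M y A L ρ ψ) {d : P} (hn : d ∈ 𝐍(L))
    (h1 : ∀ v : V, d • v - v ∈ fixS V L) : d ∈ 𝐂(L) := fun x hx => by
  have h2 : d * x * d⁻¹ ∈ L := H69.conj_mem_of_mem_normalizer hn hx
  have h3 : d * x * d⁻¹ = x := h.pt.eq_of h2 hx (sl_eq_of_mulVec fun s => by
    obtain ⟨v, rfl⟩ := h.pt.ψ_surj s
    have e1 : ∀ w : V, ψ (d • w) = ψ w := fun w => by
      rw [← sub_eq_zero, ← map_sub, h.pt.ker]; exact h1 w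
    rw [← h.pt.equiv _ h2, ← h.pt.equiv _ hx, mul_smul, mul_smul, e1, h.pt.equiv _ hx,
      h.pt.equiv _ hx, ← e1 (d⁻¹ • v), smul_inv_smul])
  exact (mul_inv_eq_iff_eq_mul.1 h3).symm

theorem exists_vec (h : Par p T M y A L ρ ψ) {d : P} (hd : d ∈ T) (hn : d ∈ 𝐍(A)) :
    ∃ v ∉ fixS V A, d • v - v ∈ fixS V A := by
  obtain ⟨v, -, h2, h3⟩ := exists_fix_mod h.hyp.tors (h.hyp.syl.isP.to_le (zpowers_le.2 hd))
    (W := fixS V A) (U := ⊤) ((zpowers_le.2 hn).trans (normalizer_le_nrm_fixS A))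
    (fun _ _ _ => by simp) (lt_top_iff_ne_top.2 fun e => h.min.ne (eq_bot_of_fixS e))
  exact ⟨v, h2, h3 d (mem_zpowers d)⟩

/-- a `p`-element centralizing `A` induces an element of `A` on `L` -/
theorem exists_mul_mem (h : Par p T M y A L ρ ψ) {d : P} (hd : d ∈ T) (hc : d ∈ 𝐂(A)) :
    ∃ a ∈ A, a⁻¹ * d ∈ 𝐂(L) := by
  obtain ⟨x, hx, e⟩ := h.pt.exists_wk
  have hn : 𝐂(A) ≤ 𝐍(A) := le_normalizer_of_le_centralizer le_rfl
  have hX : ¬ A ^ᶜ x ≤ 𝐍(A) := fun h1 => h.pt.not_le_normalizer (by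
    rw [← h.pt.sup_eq hx e]; exact sup_le le_normalizer h1)
  obtain ⟨a, ha, e1⟩ : ∃ a ∈ A, (A ^ᶜ x) ^ᶜ d = (A ^ᶜ x) ^ᶜ a := by
    have h1 : ¬ (A ^ᶜ x) ^ᶜ d ≤ 𝐍(A) := fun h1 => hX (by
      have := cj_mono d⁻¹ h1
      rwa [cj_cj_inv, cj_eq_of_mem (inv_mem (hn hc))] at this)
    rcases h.tri _ ((h.min.cj x).cj d) with ⟨z, hz, e'⟩ | h2
    · rw [e'] at h1 ⊢
      exact h.pt.exists_cj_eq hx e hz fun h2 => h1 (cj_le_of_mem le_normalizer h2)
    · exact absurd ((le_centralizer_iff.1 (h.pt.le.trans h2)).trans hn) h1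
  refine ⟨a, ha, ?_⟩
  set d' := a⁻¹ * d with hd'
  have h1 : d' ∈ 𝐂(A) := mul_mem (inv_mem (h.comm ha)) hc
  have h2 : d' ∈ 𝐍(A ^ᶜ x) := cj_eq_self_iff.1 (by rw [hd', ← cj_cj, e1, cj_cj_inv])
  have h3 := h.le_normalizer_L (hn h1)
  obtain ⟨v₀, h4, h5⟩ := h.exists_vec (T.mul_mem (T.inv_mem (h.le ha)) hd) (hn h1)
  have hC : ∀ w ∈ fixS V L, d' • w - w ∈ fixS V L := fun w hw =>
    sub_mem (smul_mem_fixS_of_mem_normalizer h3 hw) hw
  have h6 : ∀ w ∈ fixS V A, d' • w - w ∈ fixS V L := fun w hw => by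
    have h7 : ψ v₀ 1 ≠ 0 := fun h7 => h4 ((h.pt.fix v₀).2 h7)
    obtain ⟨b, hb, e2⟩ := h.pt.up_surj (ψ w 0 / ψ v₀ 1)
    have h8 : w - (b • v₀ - v₀) ∈ fixS V L := h.pt.ker'.2 ⟨by
      rw [map_sub, Pi.sub_apply, h.pt.up0 hb e2, div_mul_cancel₀ _ h7, sub_self], by
      rw [map_sub, Pi.sub_apply, (h.pt.fix w).1 hw, (h.pt.fix _).1 (h.pt.quad (mem_comS hb v₀)),
        sub_self]⟩
    have h9 : d' • (b • v₀ - v₀) = b • v₀ - v₀ := smul_sub_of_comm (h1 b hb) (h5 b hb)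
    have := hC _ h8
    rwa [smul_sub, h9, sub_sub_sub_cancel_right] at this
  have h7 : ∀ v : V, d' • v - v ∈ fixS V A := fun v => by
    obtain ⟨b, hb, hb1⟩ := h.pt.exists_ne_one
    refine h.pt.reg hb hb1 ?_
    have := h6 _ (h.pt.quad (mem_comS hb v))
    rwa [smul_sub, ← mul_smul, ← h1 b hb, mul_smul, sub_sub_sub_comm, ← smul_sub] at this
  refine h.mem_centralizer_L h3 fun v => ?_
  obtain ⟨w, w0, w1⟩ := h.pt.exists_ψ 0 (ψ v 1)
  have hw := (h.pt.fix' hx e w).2 w0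
  have := add_mem (h6 (v - w) ((h.pt.fix _).2 (by rw [map_sub, Pi.sub_apply, w1, sub_self])))
    (h.pt.inf_eq hx e (h7 w) (sub_mem (smul_mem_fixS_of_mem_normalizer h2 hw) hw))
  rwa [smul_sub, sub_sub_sub_comm, sub_add_cancel] at this

end Par

/-- The FF-module theorem for groups minimal over a Baumann-type subgroup `B`. -/
theorem mod_main (h : Hyp V p T M y) (hp2 : p ≠ 2) {B : Subgroup P} (hBT : B ≤ T)
    (hB : ∀ K, B ≤ K → K ≠ ⊤ → K ≤ M) (𝓕 : Set (Subgroup P))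
    (h𝓕 : ∀ D ∈ 𝓕, D ≤ T ∧ D ≤ 𝐂(D) ∧ Nat.card V ≤ Nat.card D * Nat.card (fixS V D))
    (hne : ∃ D ∈ 𝓕, D ≠ ⊥) (hfix : ∀ v : V, (∀ D ∈ 𝓕, v ∈ fixS V D) → v ∈ fixS V B) :
    IsMin V p T := by
  have key : ∀ A, IsMin V p A → A ≤ T → B ≤ 𝐍(A) := fun A hA hAT b hb => by
    obtain ⟨L, F, _, _, ρ, ψ, hP⟩ := exists_par h hp2 hA hAT
    obtain ⟨u, h1, h2, h3⟩ := hP.exists_fix (K := sSup 𝓕) (sSup_le fun D hD => (h𝓕 D hD).1)
      (sSup_le fun D hD => hP.le_normalizer_of_off (h𝓕 D hD).1 (h𝓕 D hD).2.1 (h𝓕 D hD).2.2)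
    by_contra hn
    have h4 := hP.smul_mem (hBT hb) hn h1
    rw [hfix u (fun D hD => fixS_anti (le_sSup hD) h3) b hb] at h4
    exact h2 (hP.eq_zero h1 h4)
  have hoff : ∀ D ∈ 𝓕, D ≠ ⊥ → ∃ A ≤ D, IsMin V p A := fun D hD h1 => by
    obtain ⟨A, h2, h3, -⟩ := exists_isMin' h.tors (h.syl.isP.to_le (h𝓕 D hD).1) (h𝓕 D hD).2.1 h1
      (h𝓕 D hD).2.2
    exact ⟨A, h2, h3⟩
  obtain ⟨D₀, hD₀, h0⟩ := hne
  obtain ⟨A, hAD, hA⟩ := hoff D₀ hD₀ h0
  have hAT := hAD.trans (h𝓕 D₀ hD₀).1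
  obtain ⟨L, F, _, _, ρ, ψ, hP⟩ := exists_par h hp2 hA hAT
  have htop : ∀ K, B ≤ K → L ≤ K → K = ⊤ := fun K h1 h2 => by
    by_contra h3
    exact hP.nle (h2.trans (hB K h1 h3))
  have hLn : 𝐍(L) = ⊤ := htop _ (fun b hb => hP.le_normalizer_L (key A hA hAT hb)) le_normalizer
  have hTL : T ⊓ 𝐂(L) = ⊥ := h.core _ (h.syl.isP.to_le inf_le_left) (htop _
    (hBT.trans (le_normalizer_inf le_normalizer (le_normalizer_centralizer (hLn ▸ le_top))))
    (le_normalizer_of_le_centralizer (le_centralizer_iff.1 inf_le_right))).ge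
  have hCA : ∀ d ∈ T, d ∈ 𝐂(A) → d ∈ A := fun d hd hc => by
    obtain ⟨a, ha, h1⟩ := hP.exists_mul_mem hd hc
    have h2 := mem_bot.1 (hTL.le ⟨T.mul_mem (T.inv_mem (hAT ha)) hd, h1⟩)
    rwa [← inv_mul_eq_one.1 h2]
  have hDA : ∀ D ∈ 𝓕, D ≤ A := fun D hD => by
    by_cases h1 : D = ⊥
    · rw [h1]; exact bot_le
    obtain ⟨A', h2, h3⟩ := hoff D hD h1
    have h4 := h2.trans (h𝓕 D hD).1
    obtain rfl : A' = A := by
      by_contra h5
      exact h3.ne (h.core _ (H24.EA.isPGroup h3.ea) (htop _ (key A' h3 h4)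
        (le_normalizer_of_le_centralizer (hP.other h3 h4 h5))).ge)
    exact fun d hd => hCA d ((h𝓕 D hD).1 hd) (H69.centralizer_anti h2 ((h𝓕 D hD).2.1 hd))
  have hfB : fixS V A ≤ fixS V B := fun v hv => hfix v fun D hD => fixS_anti (hDA D hD) hv
  have hBA : B ≤ A := fun b hb => hCA b (hBT hb) fun a ha => by
    obtain ⟨v, h1, h2⟩ := hP.exists_vec (hBT hb) (key A hA hAT hb)
    have h3 := H69.conj_mem_of_mem_normalizer (key A hA hAT hb) ha
    have h4 := hfB (hP.pt.quad (mem_comS ha v)) b hb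
    have h5 := h2 _ h3
    by_contra h6
    refine h1 (h.reg hA (A.mul_mem (A.inv_mem ha) h3) (fun h7 => h6 ?_) ?_)
    · exact (mul_inv_eq_iff_eq_mul.1 (inv_mul_eq_one.1 h7).symm).symm
    · rw [smul_sub, ← mul_smul, inv_mul_cancel_right, mul_smul, sub_eq_sub_iff_sub_eq_sub,
        ← smul_sub, h4, sub_left_inj] at h5
      rw [mul_smul, ← h5, inv_smul_smul]
  obtain rfl := htop L (hBA.trans hP.pt.le) le_rfl
  have hTA : T ≤ A := fun t ht => by
    have h1 := (hP.pt.fix y).1 (fixS_anti hAT h.fix)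
    have h2 : ψ y 0 ≠ 0 := fun h2 => h.nfix (hP.pt.ker'.2 ⟨h2, h1⟩)
    have h3 := hP.pt.ψ0 (mem_top t) y
    have h4 := hP.pt.ψ1 (mem_top t) y
    rw [h.fix t ht, h1, mul_zero, add_zero] at h3 h4
    have h5 : ρ t 0 0 = 1 := by
      apply mul_right_cancel₀ h2; rw [← h3, one_mul]
    have h6 : ρ t 1 0 = 0 := (mul_eq_zero.1 h4.symm).resolve_right h2
    have h7 := (ρ t).det_coe
    rw [Matrix.det_fin_two, h5, h6] at h7
    refine hP.pt.mem_of_up (mem_top t) (c := ρ t 0 1) ?_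
    ext i j
    fin_cases i <;> fin_cases j <;> simp [upT, H64.SL2.mk, h5, h6]
    simpa using h7
  rwa [le_antisymm hTA hAT]

theorem ti_of_isMin (h : Hyp V p T M y) (hp2 : p ≠ 2) (hT : IsMin V p T) {g a : P} (hg : g ∉ M)
    (ha : a ∈ M) {k : ℕ} (hk : a ^ p ^ k = 1) (h1 : g * a * g⁻¹ ∈ M) : a = 1 := by
  have key : ∀ b ∈ M, b ^ p ^ k = 1 → b ∈ T := fun b hb e => by
    obtain ⟨m, hm, h2⟩ := (h.syl.mono h.leM le_top).exists_le_cj (H68.isPGroup_zpowers e)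
      (zpowers_le.2 hb)
    exact h.le_T (hT.cj m) (two_lt_card (hT.cj m) hp2) (cj_le_of_mem h.leM hm) (h2 (mem_zpowers b))
  by_contra h2
  refine hg (h.normalizer_le h.syl.isP h.ne_bot le_normalizer (cj_eq_self_iff.1
    (h.eq_of_mem (hT.cj g) hT (cj_mem g (key a ha hk)) (key _ h1 (by rw [conj_pow, hk]; simp))
      (by simpa using h2))))

theorem mod_eq_defs : True := by
  have := @cu.eq_1.{0, 0}
  trivial

end H90.GNT
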