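import Mathlib
import Cfsg.Agent.Base
import Cfsg.Agent.Lib.GNT.Mod
import Cfsg.Agent.Lib.Push.PU
import Cfsg.Agent.Lib.Functor.Weak

/-! Groups minimal over `C_S(Z J(S))` are in the pushing-up situation, `p` odd (helper90). -/

set_option autoImplicit false
set_option linter.unusedSectionVars false
set_option linter.style.haveILetI false

namespace H90.GNT

open Subgroup H69 H24 H68.Push Cfsg H59.MP
open scoped commutatorElement

variable {X : Type*} [Group X]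

/-- `C_S(Z J(S))` -/
def jb (S : Subgroup X) : Subgroup X := S ⊓ 𝐂(centerThompsonAOf S)

theorem jb_le (S : Subgroup X) : jb S ≤ S := inf_le_left

theorem J_le_jb (S : Subgroup X) : thompsonSubgroupAOf S ≤ jb S :=
  le_inf (thompsonSubgroupAOf_le S) (le_centralizer_comm.1 inf_le_right)

theorem map_jb {Y : Type*} [Group Y] {f : X →* Y} (hf : Function.Injective f) (S : Subgroup X) :
    (jb S).map f = jb (S.map f) := by
  rw [jb, map_inf_centralizer hf, map_centerThompsonAOf hf, jb]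

theorem cj_jb (S : Subgroup X) (g : X) : jb S ^ᶜ g = jb (S ^ᶜ g) :=
  map_jb (MulAut.conj g).injective S

theorem normalizer_le_jb (S : Subgroup X) : 𝐍(S) ≤ 𝐍(jb S) :=
  normalizer_le_normalizer_of_cj fun g hg => by rw [cj_jb, hg]

variable [Finite X]

theorem zj_eq_of_le {S T : Subgroup X} (h1 : thompsonSubgroupAOf S ≤ T) (h2 : T ≤ S) :
    centerThompsonAOf T = centerThompsonAOf S := by
  rw [centerThompsonAOf_def, centerThompsonAOf_def, thompsonSubgroupAOf_eq_of_le h1 h2]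

theorem jb_eq_of_le {S T : Subgroup X} (h1 : jb S ≤ T) (h2 : T ≤ S) : jb T = jb S := by
  rw [jb, zj_eq_of_le ((J_le_jb S).trans h1) h2]
  exact le_antisymm (inf_le_inf_right _ h2) (le_inf h1 inf_le_right)

theorem jb_jb (S : Subgroup X) : jb (jb S) = jb S := jb_eq_of_le le_rfl (jb_le S)

theorem jb_ne_bot {S : Subgroup X} (h : S ≠ ⊥) : jb S ≠ ⊥ := fun h1 =>
  thompsonSubgroupAOf_ne_bot h (le_bot_iff.1 (h1 ▸ J_le_jb S))

/-- `L` is minimal over `C_S(Z J(S))`. -/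
structure BMin (p : ℕ) (L S M : Subgroup X) : Prop where
  syl : IsSylowIn p S L
  charP : L ⊓ 𝐂(pCoreOf p L) ≤ pCoreOf p L
  leM : S ≤ M
  ne : ¬ L ≤ M
  max : ∀ K, jb S ⊔ pCoreOf p L ≤ K → K ≤ L → K ≠ L → K ≤ M
  cZ : L ⊓ 𝐂(S ⊓ 𝐂(S)) ≤ M
  nB : L ⊓ 𝐍(jb S) ≤ M

namespace BMin

variable {p : ℕ} [hp : Fact p.Prime] {L S M : Subgroup X}

theorem BQ_le (h : BMin p L S M) : jb S ⊔ pCoreOf p L ≤ S := sup_le (jb_le S) h.syl.pCoreOf_le

theorem inf_le_Q (h : BMin p L S M) {N : Subgroup X} (hNL : N ≤ L) (hn : L ≤ 𝐍(N)) (hN : N ≤ M) :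
    S ⊓ N ≤ pCoreOf p L := by
  refine H70.le_pCoreOf (h.syl.isP.to_le inf_le_left) (inf_le_left.trans h.syl.le) ?_
  by_contra h1
  refine h.ne ?_
  rw [← (h.syl.inf_normal hNL hn).frattini_sup hNL hn]
  exact sup_le hN (h.max _ (h.BQ_le.trans (le_inf h.syl.le (le_normalizer_inf
    Subgroup.le_normalizer (h.syl.le.trans hn)))) inf_le_left fun e => h1 (e.ge.trans inf_le_right))

theorem res_le (h : BMin p L S M) {N : Subgroup X} (hNL : N ≤ L) (hn : L ≤ 𝐍(N))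
    (hN : ¬ N ≤ M) : 𝐑(p, L) ≤ N := by
  have h1 : N ⊔ (jb S ⊔ pCoreOf p L) = L := by
    by_contra h1
    exact hN (le_sup_left.trans (h.max _ le_sup_right (sup_le hNL (h.BQ_le.trans h.syl.le)) h1))
  conv_lhs => rw [← h1]
  exact res_sup_le (h.syl.isP.to_le h.BQ_le) ((h.BQ_le.trans h.syl.le).trans hn)

theorem le_M (h : BMin p L S M) {N : Subgroup X} (hn : L ≤ 𝐍(N)) (hN : ¬ 𝐑(p, L) ≤ N) :
    L ⊓ N ≤ M := by
  by_contra h1
  exact hN ((h.res_le inf_le_left (le_normalizer_inf Subgroup.le_normalizer hn) h1).trans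
    inf_le_right)

theorem inf_le_Q' (h : BMin p L S M) {N : Subgroup X} (hn : L ≤ 𝐍(N)) (hN : ¬ 𝐑(p, L) ≤ N) :
    S ⊓ N ≤ pCoreOf p L :=
  (le_inf inf_le_left (inf_le_inf_right _ h.syl.le)).trans (h.inf_le_Q inf_le_left
    (le_normalizer_inf Subgroup.le_normalizer hn) (h.le_M hn hN))

theorem V_le (h : BMin p L S M) : ncl (S ⊓ 𝐂(S)) L ≤ pCoreOf p L ⊓ 𝐂(pCoreOf p L) := by
  have hn := H70.le_normalizer_pCoreOf p L
  have h1 : S ⊓ 𝐂(S) ≤ 𝐂(pCoreOf p L) := inf_le_right.trans (H69.centralizer_anti h.syl.pCoreOf_le)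
  exact ncl_le (le_inf ((le_inf (inf_le_left.trans h.syl.le) h1).trans h.charP) h1)
    (le_normalizer_inf hn (le_normalizer_centralizer hn))

theorem not_res_Z (h : BMin p L S M) : ¬ 𝐑(p, L) ≤ 𝐂(S ⊓ 𝐂(S)) := fun h1 =>
  h.ne ((le_inf le_rfl (h.syl.eq_of_res_le (le_centralizer_comm.1 inf_le_right) h1)).trans h.cZ)

theorem not_res (h : BMin p L S M) : ¬ 𝐑(p, L) ≤ 𝐂(ncl (S ⊓ 𝐂(S)) L) := fun h1 =>
  h.not_res_Z (h1.trans (H69.centralizer_anti (le_ncl _ L)))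

theorem inf_cV (h : BMin p L S M) : S ⊓ 𝐂(ncl (S ⊓ 𝐂(S)) L) = pCoreOf p L :=
  le_antisymm (h.inf_le_Q' (le_normalizer_centralizer (le_normalizer_ncl _ L)) h.not_res)
    (le_inf h.syl.pCoreOf_le (le_centralizer_comm.1 (h.V_le.trans inf_le_right)))

theorem exists_off (h : BMin p L S M) : ∃ A ∈ maxAb S, ¬ A ≤ pCoreOf p L := by
  by_contra h1
  push Not at h1
  have h2 := thompsonSubgroupAOf_le_iff.2 h1
  have h3 : ncl (S ⊓ 𝐂(S)) L ≤ centerThompsonAOf S := by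
    rw [← centralizer_thompsonA_eq]
    exact le_inf ((h.V_le.trans inf_le_left).trans h.syl.pCoreOf_le)
      ((h.V_le.trans inf_le_right).trans (H69.centralizer_anti h2))
  have h4 : jb S ≤ pCoreOf p L := h.inf_cV ▸ inf_le_inf_left _ (H69.centralizer_anti h3)
  refine h.ne ((le_inf le_rfl ?_).trans h.nB)
  rw [← jb_eq_of_le h4 h.syl.pCoreOf_le]
  exact (H70.le_normalizer_pCoreOf p L).trans (normalizer_le_jb _)

theorem off_card (h : BMin p L S M) {A : Subgroup X} (hA : A ∈ maxAb S) {B : Subgroup X}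
    (hB : B ≤ A) : Nat.card B * Nat.card (ncl (S ⊓ 𝐂(S)) L ⊓ 𝐂(B) : Subgroup X) ≤
      Nat.card A * Nat.card (ncl (S ⊓ 𝐂(S)) L ⊓ 𝐂(A) : Subgroup X) := by
  set V := ncl (S ⊓ 𝐂(S)) L
  have hVQ : V ≤ pCoreOf p L := h.V_le.trans inf_le_left
  have hc : B ≤ 𝐂(V ⊓ 𝐂(B)) := le_centralizer_comm.1 inf_le_right
  have hV : IsMulCommutative V := isMulCommutative_of_le (isMulCommutative_inf_centralizer _) h.V_le
  rw [← card_sup_mul_card_inf (le_normalizer_of_le_centralizer hc)]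
  exact Nat.mul_le_mul (hA.2.2 _ (sup_le (hB.trans hA.1) ((inf_le_left.trans hVQ).trans
    h.syl.pCoreOf_le)) (isMulCommutative_sup (isMulCommutative_of_le hA.2.1 hB)
      (isMulCommutative_of_le hV inf_le_left) hc)) (card_le_of_le (le_inf
        (inf_le_right.trans inf_le_left) ((inf_le_left.trans hB).trans
          (le_centralizer_iff_isMulCommutative.2 hA.2.1))))

theorem pow_mem (h : BMin p L S M) {v : X} (hv : v ∈ ncl (S ⊓ 𝐂(S)) L) : v ^ p ∈ 𝐂(𝐑(p, L)) := by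
  set V := ncl (S ⊓ 𝐂(S)) L with hVd
  have hLV : L ≤ 𝐍(V) := le_normalizer_ncl _ L
  have hQV : pCoreOf p L ≤ 𝐂(V) := le_centralizer_comm.1 (h.V_le.trans inf_le_right)
  have hVV : V ≤ 𝐂(V) := (h.V_le.trans inf_le_left).trans hQV
  have hV : IsMulCommutative V := le_centralizer_iff_isMulCommutative.1 hVV
  obtain ⟨A, hA, hAQ⟩ := h.exists_off
  have hAV := (hA.1.trans h.syl.le).trans hLV
  obtain ⟨h1, -⟩ := replacement_core hV hAV ((commutator_eq_bot_of_le_centralizer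
    (le_centralizer_iff_isMulCommutative.2 hA.2.1)).le.trans bot_le)
    (fun B hB => h.off_card hA hB) le_rfl
  have h2 := replacement_ne_bot hV ((H70.isPGroup_pCoreOf p L).to_le (h.V_le.trans inf_le_left)) hAV
    (fun a ha => by
      obtain ⟨k, hk⟩ := isPGroup_iff_mem.1 h.syl.isP a (hA.1 ha)
      exact ⟨k, hk ▸ one_mem _⟩) le_rfl h1
    fun h3 => hAQ (h.inf_cV ▸ le_inf hA.1 (le_centralizer_of_commutator_eq_bot' h3))
  obtain ⟨a, ha, ha'⟩ := SetLike.not_le_iff_exists.1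
    fun h3 => h2 (commutator_eq_bot_of_le_centralizer' h3)
  obtain ⟨k, hk⟩ := isPGroup_iff_mem.1 h.syl.isP a (hA.1 ha.1)
  obtain ⟨b, hb, hb1, hb2⟩ := H59.exists_pow_not_mem_pow_mem hk ha'
  have hb3 := zpowers_le.2 (zpowers_le.2 ha hb)
  let U : Subgroup X := Subgroup.closure ((fun v => v ^ p) '' (V : Set X))
  have hU : L ≤ 𝐍(U) := fun g hg => H24.mem_normalizer_of_conj_mem fun x hx => by
    have : U ≤ U.comap (MulAut.conj g).toMonoidHom := (Subgroup.closure_le _).2 (by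
      rintro _ ⟨w, hw, rfl⟩
      exact Subgroup.subset_closure ⟨g * w * g⁻¹, H24.conj_mem_of_mem_normalizer (hLV hg) hw, by simp⟩)
    exact this hx
  have h3 : b ∈ 𝐂(U) := le_centralizer_comm.1 ((Subgroup.closure_le _).2 (by
    rintro _ ⟨w, hw, rfl⟩ c hc
    obtain ⟨n, rfl⟩ := mem_zpowers_iff.1 hc
    exact (Commute.zpow_left (H59.commute_pow_of_quadratic hVV (hAV (hb3 (mem_zpowers b)).1)
      (commutator_eq_bot_of_le_centralizer' ((hb3.trans inf_le_right).trans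
        (H69.centralizer_anti (commutator_mono le_rfl (hb3.trans inf_le_left))))) hb2 hw) n).eq))
    (mem_zpowers b)
  have h4 : 𝐑(p, L) ≤ 𝐂(U) := by
    by_contra h4
    exact hb1 (hQV (h.inf_le_Q' (le_normalizer_centralizer hU) h4
      ⟨hA.1 (hb3 (mem_zpowers b)).1, h3⟩))
  exact le_centralizer_comm.1 h4 (Subgroup.subset_closure ⟨v, hv, rfl⟩)

theorem pu (h : BMin p L S M) (hp2 : p ≠ 2) : ∃ q, PU p q L S M := by
  classical
  set V := ncl (S ⊓ 𝐂(S)) L with hVd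
  set Q := pCoreOf p L with hQd
  set D := V ⊓ 𝐂(𝐑(p, L)) with hD
  have hSL := h.syl.le
  have hQS : Q ≤ S := h.syl.pCoreOf_le
  have hLV : L ≤ 𝐍(V) := le_normalizer_ncl _ L
  have hVQ : V ≤ Q := h.V_le.trans inf_le_left
  have hQV : Q ≤ 𝐂(V) := le_centralizer_comm.1 (h.V_le.trans inf_le_right)
  have hVV : V ≤ 𝐂(V) := hVQ.trans hQV
  have hLD : L ≤ 𝐍(D) := le_normalizer_inf hLV (le_normalizer_centralizer (le_normalizer_res L))
  have hs : IsSec L V D :=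
    ⟨hLV, hLD, inf_le_left, (commutator_eq_bot_of_le_centralizer hVV).le.trans bot_le⟩
  have hn : L ≤ 𝐍(cm D V) := le_normalizer_cm hLD hLV
  have hR : ¬ 𝐑(p, L) ≤ cm D V := fun h1 => h.not_res (res_le_centralizer_of_res_quadratic
    ((H70.isPGroup_pCoreOf p L).to_le hVQ) hLV ((le_cm_iff.1 h1).2.trans inf_le_right))
  have hcD : ∀ {A B : Subgroup X}, B ≤ 𝐍(D) → B ≤ 𝐂(A) → B ≤ cm D A := fun h1 h2 =>
    le_cm_iff'.2 ⟨h1, (commutator_eq_bot_of_le_centralizer h2).le.trans bot_le⟩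
  have hSK : S ⊓ cm D V = Q := le_antisymm (h.inf_le_Q' hn hR)
    (le_inf hQS (hcD ((hQS.trans hSL).trans hLD) hQV))
  have hKM := h.le_M hn hR
  obtain ⟨W, _, _, π, h1, h2, h3, h4⟩ := hs.exists_model
  haveI : Finite W := by
    refine Finite.of_surjective (fun v : V => π v) fun w => ?_
    obtain ⟨v, hv, e⟩ := h2 w
    exact ⟨⟨v, hv⟩, e⟩
  have hπ1 : π 1 = 0 := (h3 1 V.one_mem).2 D.one_mem
  have hπinv : ∀ v ∈ V, π v⁻¹ = - π v := fun v hv => by
    rw [eq_neg_iff_add_eq_zero, ← h1 _ (V.inv_mem hv) _ hv, inv_mul_cancel, hπ1]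
  have hπpow : ∀ v ∈ V, ∀ m : ℕ, π (v ^ m) = m • π v := fun v hv m => by
    induction m with
    | zero => simpa using hπ1
    | succ m ih => rw [pow_succ, h1 _ (V.pow_mem hv m) _ hv, ih, succ_nsmul]
  have hsm : ∀ (x : L), ∀ v ∈ V, x • π v = π v ↔ ⁅(x : X), v⁆ ∈ D := fun x v hv => by
    have h5 := H69.conj_mem_of_mem_normalizer (hLV x.2) hv
    rw [← sub_eq_zero, h4 x v hv, commutatorElement_def, ← h3 _ (V.mul_mem h5 (V.inv_mem hv)),
      h1 _ h5 _ (V.inv_mem hv), hπinv v hv, sub_eq_add_neg]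
  letI := rangeAction (L := L) (V := W)
  let f := (MulAction.toPermHom L W).rangeRestrict
  have hf : Function.Surjective f := MonoidHom.rangeRestrict_surjective _
  have hfs : ∀ (x : L) (v : W), f x • v = x • v := fun _ _ => rfl
  haveI : FaithfulSMul (MulAction.toPermHom L W).range W :=
    ⟨fun {a b} h => Subtype.ext (Equiv.ext h)⟩
  have hf1 : ∀ x : L, f x = 1 ↔ (x : X) ∈ cm D V := fun x => by
    rw [mem_cm']
    refine ⟨fun e => ⟨hLD x.2, fun v hv => (hsm x v hv).1 (by rw [← hfs, e, one_smul])⟩,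
      fun e => eq_of_smul_eq_smul (α := W) fun w => ?_⟩
    obtain ⟨v, hv, rfl⟩ := h2 w
    rw [hfs, one_smul, hsm x v hv]; exact e.2 v hv
  have hker : f.ker = (cm D V).subgroupOf L := by ext x; exact hf1 x
  let im : Subgroup X → Subgroup (MulAction.toPermHom L W).range := fun A => (A.subgroupOf L).map f
  have him : ∀ {A B : Subgroup X}, A ≤ B → im A ≤ im B := fun h => map_mono (comap_mono h)
  have hmem : ∀ {A : Subgroup X} {x : L}, (x : X) ∈ A → f x ∈ im A := fun h => ⟨_, h, rfl⟩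
  have hmemM : ∀ x : L, f x ∈ im M → (x : X) ∈ M := by
    rintro x ⟨z, hz, e⟩
    have h5 := (hf1 (z⁻¹ * x)).1 (by rw [map_mul, map_inv, e, inv_mul_cancel])
    exact (M.mul_mem_cancel_left (M.inv_mem hz)).1 (hKM ⟨(z⁻¹ * x).2, h5⟩)
  have hfix : ∀ A ≤ L, ∀ v ∈ V, π v ∈ fixS W (im A) ↔ v ∈ cm D A := fun A hA v hv =>
    ⟨fun hx => ⟨hs.le_normalizer hv, fun b hb => (hsm ⟨b, hA hb⟩ v hv).1 (hx _ (hmem hb))⟩, by
      rintro hx _ ⟨b, hb, rfl⟩; exact (hsm b v hv).2 (hx.2 b hb)⟩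
  have hall : ∀ Y : AddSubgroup W, (∀ g : L, ∀ w ∈ Y, g • w ∈ Y) → (∀ z ∈ S ⊓ 𝐂(S), π z ∈ Y) →
      Y = ⊤ := fun Y hY hZ => by
    let U : Subgroup X :=
      { carrier := {v | v ∈ V ∧ π v ∈ Y}
        one_mem' := ⟨V.one_mem, hπ1 ▸ Y.zero_mem⟩
        mul_mem' := fun {a b} ha hb => ⟨V.mul_mem ha.1 hb.1, by
          rw [h1 a ha.1 b hb.1]; exact Y.add_mem ha.2 hb.2⟩
        inv_mem' := fun {a} ha => ⟨V.inv_mem ha.1, by rw [hπinv a ha.1]; exact Y.neg_mem ha.2⟩ }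
    have hU : V ≤ U := ncl_le (fun z hz => ⟨le_ncl _ L hz, hZ z hz⟩) fun g hg =>
      H24.mem_normalizer_of_conj_mem fun x hx => ⟨H69.conj_mem_of_mem_normalizer (hLV hg) hx.1,
        h4 ⟨g, hg⟩ x hx.1 ▸ hY ⟨g, hg⟩ _ hx.2⟩
    refine eq_top_iff.2 fun w _ => ?_
    obtain ⟨v, hv, rfl⟩ := h2 w
    exact (hU hv).2
  have hZfix : ∀ z ∈ S ⊓ 𝐂(S), π z ∈ fixS W (im S) := fun z hz =>
    (hfix S hSL z (le_ncl _ L hz)).2 (hcD ((le_ncl _ L).trans hs.le_normalizer) inf_le_right hz)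
  have hsyl : IsSylowIn p (im S) ⊤ := by
    have := h.syl.subgroupOf_top.map f
    rwa [map_top_of_surjective f hf] at this
  obtain ⟨A₀, hA₀, hA₀Q⟩ := h.exists_off
  have hne : ∀ A ≤ S, ¬ A ≤ Q → im A ≠ ⊥ := fun A hA h5 h6 => h5 fun a ha =>
    hSK.le ⟨hA ha, (hf1 ⟨a, hSL (hA ha)⟩).1 (mem_bot.1 (h6 ▸ hmem ha))⟩
  obtain ⟨z, hz, hz'⟩ : ∃ z ∈ S ⊓ 𝐂(S), π z ∉ fixS W (⊤ : Subgroup (MulAction.toPermHom L W).range) := by
    by_contra h5
    push Not at h5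
    exact hne S le_rfl (fun h6 => hA₀Q (hA₀.1.trans h6)) (le_bot_iff.1 (le_top.trans (eq_bot_of_fixS
      (hall _ (fun g w hw => smul_mem_fixS_top (f g) w hw) h5)).le))
  have hmax : ∀ K, im (jb S) ≤ K → K ≠ ⊤ → K ≤ im M := fun K h5 h6 x hx => by
    obtain ⟨x, rfl⟩ := hf x
    refine hmem (h.max ((K.comap f).map L.subtype) (sup_le (fun b hb =>
      ⟨⟨b, hSL (jb_le S hb)⟩, h5 (hmem hb), rfl⟩) fun b hb => ⟨⟨b, hSL (hQS hb)⟩, ?_, rfl⟩)
      (map_subtype_le _) (fun e => h6 (eq_top_iff.2 fun w _ => ?_)) ⟨x, hx, rfl⟩)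
    · rw [SetLike.mem_coe, mem_comap, (hf1 _).2 (hSK.ge hb).2]; exact K.one_mem
    · obtain ⟨w, rfl⟩ := hf w
      obtain ⟨u, hu, e'⟩ := e.ge w.2
      exact Subtype.ext e' ▸ hu
  have hH : Hyp W p (im S) (im M) (π z) :=
    { syl := hsyl
      leM := him h.leM
      ne_top := fun e => h.ne fun x hx => hmemM ⟨x, hx⟩ (e ▸ mem_top _)
      max := fun K h5 h6 => hmax K ((him (jb_le S)).trans h5) h6
      core := fun N h5 h6 => eq_bot_of_fixS (hall _
        (fun g w hw => smul_mem_fixS_of_mem_normalizer (h6 (mem_top (f g))) hw)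
        fun z hz => fixS_anti (hsyl.le_of_le_normalizer h5 le_top (le_top.trans h6)) (hZfix z hz))
      ne_bot := hne S le_rfl fun h6 => hA₀Q (hA₀.1.trans h6)
      tors := fun w => by
        obtain ⟨v, hv, rfl⟩ := h2 w
        rw [← hπpow v hv, h3 _ (V.pow_mem hv p)]
        exact ⟨V.pow_mem hv p, h.pow_mem hv⟩
      fix := hZfix z hz
      nfix := hz' }
  have hc1 : Nat.card W * Nat.card D = Nat.card V := by
    rw [← card_model h1 h2 h3 hs.le le_rfl (Y := ⊤) (by simp), AddSubgroup.card_top]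
  have hcard : ∀ A ∈ maxAb S, im A ≤ 𝐂(im A) ∧
      Nat.card W ≤ Nat.card (im A) * Nat.card (fixS W (im A)) ∧ V ⊓ cm D A ≤ 𝐂(A) := fun A hA => by
    have hAL := hA.1.trans hSL
    have c0 : im A ≤ 𝐂(im A) := by
      rintro _ ⟨a, ha, rfl⟩ _ ⟨b, hb, rfl⟩
      rw [← map_mul, ← map_mul]
      exact congrArg f (Subtype.ext (isMulCommutative_iff_mem.1 hA.2.1 b hb a ha))
    have c1 : Nat.card (fixS W (im A)) * Nat.card D = Nat.card (V ⊓ cm D A : Subgroup X) :=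
      card_model h1 h2 h3 (le_inf hs.le (le_cm_iff.2 ⟨Subgroup.le_normalizer,
        commutator_le_right_of_le_normalizer (hAL.trans hLD)⟩)) inf_le_left fun v hv => by
        rw [hfix A hAL v hv]; simp [hv]
    have c2 : Nat.card (im A) * Nat.card (A ⊓ Q : Subgroup X) = Nat.card A := by
      rw [← relIndex_ker, hker, relIndex_subgroupOf hAL, ← hSK, ← inf_assoc, inf_eq_left.2 hA.1,
        mul_comm, inf_comm, ← card_subgroupOf (inf_le_right : cm D V ⊓ A ≤ A),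
        inf_subgroupOf_right]
      exact card_mul_index _
    have c3 := h.off_card hA (inf_le_left : A ⊓ Q ≤ A)
    rw [inf_eq_left.2 (le_centralizer_comm.1 (inf_le_right.trans hQV))] at c3
    have c4 : V ⊓ 𝐂(A) ≤ V ⊓ cm D A :=
      le_inf inf_le_left (hcD (inf_le_left.trans hs.le_normalizer) inf_le_right)
    have c5 := noOver' hH (hsyl.isP.to_le (him hA.1)) c0
    have c6 := card_le_of_le c4
    rw [← c2, mul_comm (Nat.card (im A)), mul_assoc, ← hc1] at c3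
    have c7 := Nat.le_of_mul_le_mul_left c3 Nat.card_pos
    refine ⟨c0, Nat.le_of_mul_le_mul_right (c7.trans ?_) (Nat.card_pos (α := D)), ?_⟩
    · rw [mul_assoc, c1]; exact Nat.mul_le_mul_left _ c6
    · refine (eq_of_le_of_card_ge c4 (Nat.le_of_mul_le_mul_left (le_trans ?_ c7)
        (Nat.card_pos (α := im A)))).ge.trans inf_le_right
      rw [← c1, ← mul_assoc]; exact Nat.mul_le_mul_right _ c5
  have hT := mod_main hH hp2 (him (jb_le S)) hmax (im '' maxAb S)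
    (by rintro _ ⟨A, hA, rfl⟩; exact ⟨him hA.1, (hcard A hA).1, (hcard A hA).2.1⟩)
    ⟨_, ⟨A₀, hA₀, rfl⟩, hne A₀ hA₀.1 hA₀Q⟩ fun w hw => by
      obtain ⟨v, hv, rfl⟩ := h2 w
      have h5 : v ∈ centerThompsonAOf S := by
        rw [← centralizer_thompsonA_eq, thompsonSubgroupAOf_eq_sSup]
        exact ⟨hQS (hVQ hv), le_centralizer_sSup (X := zpowers v) (fun A hA => zpowers_le.2
          ((hcard A hA).2.2 ⟨hv, (hfix A (hA.1.trans hSL) v hv).1 (hw _ ⟨A, hA, rfl⟩)⟩))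
          (mem_zpowers v)⟩
      exact (hfix _ ((jb_le S).trans hSL) v hv).2 (hcD (B := zpowers v)
        ((zpowers_le.2 hv).trans hs.le_normalizer) (le_centralizer_comm.1 (inf_le_right.trans
          (H69.centralizer_anti (zpowers_le.2 h5)))) (mem_zpowers v))
  have hQ1 : ∀ x : L, (x : X) ∈ S → f x = 1 → (x : X) ∈ Q := fun x hx e => hSK.le ⟨hx, (hf1 x).1 e⟩
  refine ⟨Q.relIndex S, h.syl, h.charP, h.leM, h.ne, fun K h5 => h.max K (h.BQ_le.trans h5),
    fun g hg hg' a ha ha' ⟨k, hk⟩ h5 => ?_, commutator_le.2 fun a ha b hb => ?_, fun t ht => ?_, ?_,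
    ?_⟩
  · have h6 := ti_of_isMin hH hp2 hT (g := f ⟨g, hg⟩) (a := f ⟨a, ha⟩) (k := k)
      (fun e => hg' (hmemM _ e)) (hmem ha') (by rw [← map_pow, ← map_one f]; congr 1; exact Subtype.ext hk)
      (by rw [← map_inv, ← map_mul, ← map_mul]; exact hmem h5)
    obtain ⟨u, hu, h7⟩ := h.syl.exists_cj_le (H68.isPGroup_zpowers hk) (zpowers_le.2 ha)
    have h8 := hSK.le ⟨h7 (cj_mem u (mem_zpowers a)),
      H69.conj_mem_of_mem_normalizer (hn hu) ((hf1 _).1 h6)⟩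
    simpa [mul_assoc] using
      H24.conj_mem_of_mem_normalizer' (H70.le_normalizer_pCoreOf p L hu) h8
  · refine hQ1 ⁅(⟨a, hSL ha⟩ : L), (⟨b, hSL hb⟩ : L)⁆ (S.mul_mem (S.mul_mem (S.mul_mem ha hb) (S.inv_mem ha))
      (S.inv_mem hb)) ?_
    rw [map_commutatorElement, commutatorElement_eq_one_iff_mul_comm]
    exact EA.comm hT.ea (hmem ha) (hmem hb)
  · refine hQ1 (⟨t, hSL ht⟩ ^ p) (S.pow_mem ht p) ?_
    rw [map_pow]; exact EA.pow_eq_one hT.ea (hmem ht)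
  · rw [mul_comm, ← card_subgroupOf hQS]; exact (card_mul_index _).symm
  · by_contra h5
    have h6 : Q.relIndex S ≠ 0 := Subgroup.index_ne_zero_of_finite (H := Q.subgroupOf S)
    exact hA₀Q (hA₀.1.trans (relIndex_eq_one.1 (le_antisymm (not_lt.1 h5) (Nat.pos_of_ne_zero h6))))

end BMin

theorem gen_eq_defs : True := by
  have := @jb.eq_1.{0}
  trivial

end H90.GNT
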