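import Mathlib
import Cfsg.Agent.Base
import Cfsg.Agent.Lib.Push.GN1
import Cfsg.Agent.Lib.PGroup.Basic
import Cfsg.Agent.Lib.Fusion.ParkTransfer

/-! Glauberman–Niles transfer, the exceptional case: an `M`-invariant character of `O_p(L)` is
`L`-invariant (helper90). -/

set_option autoImplicit false
set_option linter.unusedSectionVars false

namespace H90.GNT

open Subgroup H69 H24 Matrix Cfsg H68.Push
open scoped MatrixGroups commutatorElement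

variable {X : Type*} [Group X] [Finite X] {p q : ℕ} [hp : Fact p.Prime] {L S M : Subgroup X}

theorem two_trans (h : HG p q L S M) {g g' : X} (hg : g ∈ L) (hg' : g' ∈ L) (h1 : g ∉ M)
    (h2 : g' ∉ M) : ∃ s ∈ S, g⁻¹ * s * g' ∈ M := by
  obtain ⟨F, _, _, hF, -⟩ := h.exists_field
  obtain ⟨ρ, ψ, hN⟩ := h.nat' F hF
  have key : ∀ y ∈ L, (ρ y : Matrix (Fin 2) (Fin 2) F) 1 0 = 0 → y ∈ M := by
    intro y hy hy0
    have hyN : y ∈ 𝐍(S ⊓ 𝐂(S)) := by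
      refine H24.mem_normalizer_of_conj_mem fun z hz => ?_
      have hzV := h.Z_le hz
      have h3 := (hN.fix z hzV).1 (by rw [cm_bot]; exact hz.2)
      have h4 := hN.conj_mem hy hzV
      have h5 := (hN.fix _ h4).2 (by
        rw [hN.equiv y hy z hzV]
        simp [Matrix.mulVec, dotProduct, Fin.sum_univ_two, hy0, h3])
      rw [cm_bot] at h5
      exact h.fix.le ⟨h4, h5⟩
    refine h.max (L ⊓ 𝐍(S ⊓ 𝐂(S))) (le_inf h.le (le_normalizer_inf Subgroup.le_normalizer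
      (le_normalizer_centralizer Subgroup.le_normalizer))) inf_le_left
      (fun e => h.nz (e.ge.trans inf_le_right)) ⟨hy, hyN⟩
  have h3 := mt (key g hg) h1
  have h4 := mt (key g' hg') h2
  obtain ⟨s, hs, e⟩ := hN.up_surj (((ρ g).1 0 0 * (ρ g').1 1 0 - (ρ g).1 1 0 * (ρ g').1 0 0) /
    ((ρ g).1 1 0 * (ρ g').1 1 0))
  have hsL := h.le hs
  refine ⟨s, hs, key _ (L.mul_mem (L.mul_mem (L.inv_mem hg) hsL) hg') ?_⟩
  rw [hN.ρ_mul _ (L.mul_mem (L.inv_mem hg) hsL) _ hg', hN.ρ_mul _ (L.inv_mem hg) _ hsL,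
    hN.ρ_inv hg, e, Matrix.SpecialLinearGroup.coe_mul, Matrix.SpecialLinearGroup.coe_mul,
    Matrix.SpecialLinearGroup.coe_inv, Matrix.adjugate_fin_two]
  simp [upT, H64.SL2.mk, Matrix.mul_apply, Fin.sum_univ_two]
  field_simp
  ring

/-- the elements of `T` on which `l` is constant along `L`-conjugates -/
def cst {Y : Type*} [CommGroup Y] (l : X → Y) {L S T : Subgroup X} (hl : H92.MulOn S l)
    (hT : T ≤ S) (hn : L ≤ 𝐍(T)) : Subgroup X where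
  carrier := {x | x ∈ T ∧ ∀ g ∈ L, l (g⁻¹ * x * g) = l x}
  one_mem' := ⟨T.one_mem, fun g _ => by simp⟩
  mul_mem' := fun {a b} ha hb => ⟨T.mul_mem ha.1 hb.1, fun g hg => by
    rw [show g⁻¹ * (a * b) * g = g⁻¹ * a * g * (g⁻¹ * b * g) by group,
      hl _ (hT (H24.conj_mem_of_mem_normalizer' (hn hg) ha.1)) _
        (hT (H24.conj_mem_of_mem_normalizer' (hn hg) hb.1)), ha.2 g hg, hb.2 g hg,
      hl a (hT ha.1) b (hT hb.1)]⟩
  inv_mem' := fun {a} ha => ⟨T.inv_mem ha.1, fun g hg => by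
    rw [show g⁻¹ * a⁻¹ * g = (g⁻¹ * a * g)⁻¹ by group,
      hl.inv (hT (H24.conj_mem_of_mem_normalizer' (hn hg) ha.1)), ha.2 g hg, hl.inv (hT ha.1)]⟩

theorem hard_aux (h : HG p q L S M) (hp2 : p ≠ 2) {Y : Type*} [CommGroup Y] {l : X → Y}
    (hl : H92.MulOn S l) (hM : ∀ m ∈ L, m ∈ M → ∀ x ∈ pCoreOf p L, l (m⁻¹ * x * m) = l x) :
    pCoreOf p L ≤ cst l hl h.Q_le h.normQ := by
  set T := pCoreOf p L with hT
  set T₀ := cst l hl h.Q_le h.normQ with hT₀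
  have hTS : T ≤ S := h.Q_le
  have cT : ∀ {g x : X}, g ∈ L → x ∈ T → g⁻¹ * x * g ∈ T := fun hg hx =>
    H24.conj_mem_of_mem_normalizer' (h.normQ hg) hx
  have cT' : ∀ {g x : X}, g ∈ L → x ∈ T → g * x * g⁻¹ ∈ T := fun hg hx =>
    H24.conj_mem_of_mem_normalizer (h.normQ hg) hx
  have mulF : ∀ {g x y : X}, g ∈ L → x ∈ T → y ∈ T →
      l (g⁻¹ * (x * y) * g) = l (g⁻¹ * x * g) * l (g⁻¹ * y * g) := fun {g x y} hg hx hy => by
    rw [← hl _ (hTS (cT hg hx)) _ (hTS (cT hg hy))]; congr 1; group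
  have comm1 : ∀ {x y : X}, x ∈ S → y ∈ S → l ⁅x, y⁆ = 1 := fun hx hy =>
    (hl.mem_ker.1 (hl.commutator_le_ker (commutator_mem_commutator hx hy))).2
  have hn₀ : L ≤ 𝐍(T₀) := fun y hy => H24.mem_normalizer_of_conj_mem fun x hx =>
    ⟨cT' hy hx.1, fun g hg => by
      have e1 := hx.2 (y⁻¹ * g) (L.mul_mem (L.inv_mem hy) hg)
      have e2 := hx.2 y⁻¹ (L.inv_mem hy)
      rw [inv_inv] at e2
      rw [e2, ← e1]; congr 1; group⟩
  have hTT : ∀ t ∈ T, ∀ x ∈ T, ⁅t, x⁆ ∈ T₀ := fun t ht x hx =>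
    ⟨T.mul_mem (T.mul_mem (T.mul_mem ht hx) (T.inv_mem ht)) (T.inv_mem hx), fun g hg => by
      rw [comm1 (hTS ht) (hTS hx), ← comm1 (hTS (cT hg ht)) (hTS (cT hg hx))]
      congr 1; simp only [commutatorElement_def]; group⟩
  -- two-valued elements
  have two : ∀ x ∈ T, (∀ s ∈ S, ⁅s, x⁆ ∈ T₀) → ∀ g ∈ L, g ∉ M → ∀ g' ∈ L, g' ∉ M →
      l (g⁻¹ * x * g) = l (g'⁻¹ * x * g') := by
    intro x hx hc g hg h1 g' hg' h2
    obtain ⟨s, hs, hm⟩ := two_trans h hg hg' h1 h2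
    have e1 := hM _ (L.mul_mem (L.mul_mem (L.inv_mem hg) (h.le hs)) hg') hm _ (cT hg hx)
    have e2 := (hc s⁻¹ (S.inv_mem hs)).2 g' hg'
    rw [comm1 (S.inv_mem hs) (hTS hx)] at e2
    rw [← e1, ← one_mul (l (g'⁻¹ * x * g')), ← e2, ← mulF hg' (hc s⁻¹ (S.inv_mem hs)).1 hx]
    congr 1; simp only [commutatorElement_def]; group
  have const : ∀ x ∈ T, (∀ s ∈ S, ⁅s, x⁆ ∈ T₀) → ∀ g ∈ L, g ∉ M → l (g⁻¹ * x * g) = l x →
      x ∈ T₀ := fun x hx hc g hg h1 e => ⟨hx, fun y hy => by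
    by_cases h2 : y ∈ M
    · exact hM y hy h2 x hx
    · rw [two x hx hc y hy h2 g hg h1, e]⟩
  obtain ⟨g, hg, hg'⟩ := h.exists_notMem
  have hsq : ∀ s ∈ S, s ∉ T → s * s ∉ T := fun s hs hs' h1 => by
    obtain ⟨k, hk⟩ := isPGroup_iff_mem.1 h.isP s hs
    exact hs' (H92.mem_of_pow_mem hk (n := 2) (fun h2 => hp2
      ((Nat.prime_dvd_prime_iff_eq hp.out Nat.prime_two).1 h2)) (by rwa [pow_two]))
  have hsg : ∀ s ∈ S, s * g ∉ M := fun s hs h1 => hg' ((M.mul_mem_cancel_left (h.leM hs)).1 h1)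
  have hsgL : ∀ s ∈ S, s * g ∈ L := fun s hs => L.mul_mem (h.le hs) hg
  have hgg : ∀ s ∈ S, g⁻¹ * s * g ∈ L := fun s hs => L.mul_mem (L.mul_mem (L.inv_mem hg) (h.le hs)) hg
  -- the centre
  have hZ : S ⊓ 𝐂(S) ≤ T₀ := fun z hz => by
    obtain ⟨s, hs, hs'⟩ := SetLike.not_le_iff_exists.1 h.not_le_Q
    have hzT := h.gz.Z_le_Q (h.Z_le hz)
    have c0 : ∀ z ∈ S ⊓ 𝐂(S), ∀ s ∈ S, ⁅s, z⁆ ∈ T₀ := fun z hz s hs => by
      rw [commutatorElement_eq_one_iff_mul_comm.2 (hz.2 s hs)]; exact one_mem _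
    have hv : g * z * g⁻¹ ∈ zz p L := H24.conj_mem_of_mem_normalizer (h.gz.normZ hg) (h.Z_le hz)
    have h1 := h.quad (commutator_mem_commutator hs hv)
    have h2 := two _ (h.gz.Z_le_Q (h.Z_le h1)) (c0 _ h1) _ (hsgL s hs) (hsg s hs) _
      (hsgL _ (S.mul_mem hs hs)) (hsg _ (S.mul_mem hs hs))
    have e : ∀ y ∈ L, l (y⁻¹ * ⁅s, g * z * g⁻¹⁆ * y) * l ((g⁻¹ * y)⁻¹ * z * (g⁻¹ * y)) =
        l ((g⁻¹ * s⁻¹ * y)⁻¹ * z * (g⁻¹ * s⁻¹ * y)) := fun y hy => by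
      rw [show (g⁻¹ * y)⁻¹ * z * (g⁻¹ * y) = y⁻¹ * (g * z * g⁻¹) * y by group,
        ← mulF hy (h.gz.Z_le_Q (h.Z_le h1)) (cT' hg hzT)]
      congr 1; simp only [commutatorElement_def]; group
    have e1 := e _ (hsgL s hs)
    have e2 := e _ (hsgL _ (S.mul_mem hs hs))
    rw [show g⁻¹ * s⁻¹ * (s * g) = 1 by group, show g⁻¹ * (s * g) = g⁻¹ * s * g by group] at e1
    rw [show g⁻¹ * s⁻¹ * (s * s * g) = g⁻¹ * s * g by group,
      show g⁻¹ * (s * s * g) = g⁻¹ * (s * s) * g by group,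
      two z hzT (c0 z hz) _ (hgg _ (S.mul_mem hs hs))
        (h.notMem_conj hg hg' (S.mul_mem hs hs) (hsq s hs hs')) _ (hgg s hs)
        (h.notMem_conj hg hg' hs hs'), mul_eq_right] at e2
    rw [h2, e2, one_mul] at e1
    exact const z hzT (c0 z hz) _ (hgg s hs) (h.notMem_conj hg hg' hs hs') (by simpa using e1)
  have hV : zz p L ≤ T₀ := by
    rw [zz_eq h.syl, h.omega]; exact ncl_le hZ hn₀
  -- the large abelian subgroups
  obtain ⟨A, hA, hAT⟩ := h.exists_off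
  obtain ⟨hS, -, hA₀⟩ := h.off' hA hAT
  have hSn : S ≤ 𝐍(T₀) := h.le.trans hn₀
  have hc₀ : ∀ c ∈ A ⊓ T ⊔ zz p L, ∀ s ∈ S, ⁅s, c⁆ ∈ T₀ := by
    have h1 : A ⊓ T ⊔ zz p L ≤ cm T₀ S := by
      refine sup_le ?_ fun v hv => ⟨hSn (h.gz.Z_le_T hv), fun s hs =>
        T₀.mul_mem (H24.conj_mem_of_mem_normalizer (hSn hs) (hV hv)) (T₀.inv_mem (hV hv))⟩
      have h2 : S ≤ cm T₀ (A ⊓ T) := by
        rw [hS]
        refine sup_le (fun a ha => ⟨hSn (hA.1 ha), fun b hb => ?_⟩)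
          fun t ht => ⟨hSn (hTS ht), fun b hb => hTT b hb.2 t ht⟩
        rw [commutatorElement_eq_one_iff_mul_comm.2 (isMulCommutative_iff_mem.1 hA.2.1 b hb.1 a ha)]
        exact one_mem _
      exact fun a ha => mem_cm'.2 ⟨hSn (hA.1 ha.1), fun s hs => (h2 hs).2 a ha⟩
    exact fun c hc s hs => (h1 hc).2 s hs
  obtain ⟨a, ha, ha'⟩ := SetLike.not_le_iff_exists.1 hAT
  have haS := hA.1 ha
  have hA₀T : A ⊓ T ⊔ zz p L ≤ T := sup_le inf_le_right h.gz.Z_le_Q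
  have hAT₀ : A ⊓ T ≤ T₀ := fun b hb => by
    have hP := h.cd_cj (h.cl _ hA₀).cd le_sup_right hA₀T hg
    have h1 : a * (g * b * g⁻¹) * a⁻¹ ∈ A ⊔ (A ⊓ T ⊔ zz p L) ^ᶜ g :=
      mul_mem (mul_mem (mem_sup_left ha) (mem_sup_right (cj_mem g (mem_sup_left hb))))
        (inv_mem (mem_sup_left ha))
    obtain ⟨a₁, ha₁, c', hc', e⟩ := (h.cl A hA).cd.exists_mul hP h1
    obtain ⟨c, hc, rfl⟩ := mem_cj'.1 hc'
    have hcT := hA₀T hc
    have ha₁T : a₁ ∈ T := by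
      rw [← T.mul_mem_cancel_right (cT' hg hcT), ← e]
      exact cT' (h.le haS) (cT' hg hb.2)
    have e' : ∀ y ∈ L, l ((g⁻¹ * a⁻¹ * y)⁻¹ * b * (g⁻¹ * a⁻¹ * y)) =
        l (y⁻¹ * a₁ * y) * l ((g⁻¹ * y)⁻¹ * c * (g⁻¹ * y)) := fun y hy => by
      rw [show (g⁻¹ * y)⁻¹ * c * (g⁻¹ * y) = y⁻¹ * (g * c * g⁻¹) * y by group,
        ← mulF hy ha₁T (cT' hg hcT), ← e]
      congr 1; group
    have e1 := e' _ (hsgL a haS)
    have e2 := e' _ (hsgL _ (S.mul_mem haS haS))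
    rw [show g⁻¹ * a⁻¹ * (a * g) = 1 by group, show g⁻¹ * (a * g) = g⁻¹ * a * g by group] at e1
    rw [show g⁻¹ * a⁻¹ * (a * a * g) = g⁻¹ * a * g by group,
      show g⁻¹ * (a * a * g) = g⁻¹ * (a * a) * g by group,
      two c hcT (hc₀ c hc) _ (hgg _ (S.mul_mem haS haS))
        (h.notMem_conj hg hg' (S.mul_mem haS haS) (hsq a haS ha')) _ (hgg a haS)
        (h.notMem_conj hg hg' haS ha'),
      two a₁ ha₁T (hc₀ a₁ (mem_sup_left ⟨ha₁, ha₁T⟩)) _ (hsgL _ (S.mul_mem haS haS))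
        (hsg _ (S.mul_mem haS haS)) _ (hsgL a haS) (hsg a haS), ← e1] at e2
    exact const b hb.2 (hc₀ b (mem_sup_left hb)) _ (hgg a haS) (h.notMem_conj hg hg' haS ha')
      (by simpa using e2)
  by_contra hn
  obtain ⟨x, hx, hx', -, hc⟩ := H5.exists_step_of_le h.isP T₀ hTS (h.le.trans h.normQ) hn
  have hc' : ∀ s ∈ S, ⁅s, x⁆ ∈ T₀ := fun s hs => by
    rw [← commutatorElement_inv]; exact T₀.inv_mem (hc s hs)
  set y := g * x * g⁻¹ with hy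
  have hyT : y ∈ T := cT' hg hx
  have hyS := hTS hyT
  have hA' : A ^ᶜ y ∈ maxAb S := by
    have := (map_mem_maxAb_iff (f := (MulAut.conj y).toMonoidHom) (MulAut.conj y).injective).2 hA
    rwa [show S.map (MulAut.conj y).toMonoidHom = S from H69.cj_eq_of_mem hyS] at this
  have cy : ∀ e ∈ A, ⁅y, e⁆ ∈ T := fun e he => by
    rw [commutatorElement_def, mul_assoc, mul_assoc]
    exact T.mul_mem hyT (by rw [← mul_assoc]; exact cT' (h.le (hA.1 he)) (T.inv_mem hyT))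
  have h1 : ⁅y, a⁆ ∈ A ^ᶜ y ⊔ A :=
    mul_mem (mem_sup_left (cj_mem y ha)) (inv_mem (mem_sup_right ha))
  obtain ⟨e₀, he₀, e', he', h2⟩ := (h.cl _ hA').cd.exists_mul (h.cl A hA).cd (mul_mem h1 h1)
  obtain ⟨e, he, rfl⟩ := mem_cj'.1 he₀
  rw [show y * e * y⁻¹ * e' = ⁅y, e⁆ * (e * e') by simp only [commutatorElement_def]; group] at h2
  have h3 : e * e' ∈ T₀ := hAT₀ (mem_inf.2 ⟨A.mul_mem he he', by
    rw [← T.mul_mem_cancel_left (cy e he), ← h2]; exact T.mul_mem (cy a ha) (cy a ha)⟩)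
  have h4 : l (e * e') = 1 := by
    have := congrArg l h2
    rwa [hl _ (hTS (cy a ha)) _ (hTS (cy a ha)), hl _ (hTS (cy e he)) _ (hTS h3.1),
      comm1 hyS haS, comm1 hyS (hA.1 he), one_mul, one_mul, eq_comm] at this
  have h5 : ∀ e ∈ A, l (g⁻¹ * ⁅y, e⁆ * g) * l ((g⁻¹ * e⁻¹ * g)⁻¹ * x * (g⁻¹ * e⁻¹ * g)) = l x :=
    fun e he => by
      rw [← hl _ (hTS (cT hg (cy e he))) _ (hTS (cT (hgg _ (S.inv_mem (hA.1 he))) hx))]
      congr 1; simp only [commutatorElement_def, hy]; group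
  have h6 := congrArg (fun w => l (g⁻¹ * w * g)) h2
  simp only [mulF hg (cy a ha) (cy a ha), mulF hg (cy e he) h3.1, h3.2 g hg, h4, mul_one] at h6
  have hai := h.notMem_conj hg hg' (S.inv_mem haS) fun h7 => ha' (inv_mem_iff.1 h7)
  have h7 : l (g⁻¹ * ⁅y, a⁆ * g) = 1 := by
    by_cases h8 : g⁻¹ * e⁻¹ * g ∈ M
    · have h9 := h5 e he
      rw [hM _ (hgg _ (S.inv_mem (hA.1 he))) h8 x hx, mul_eq_right] at h9
      rw [h9, ← hl _ (hTS (cT hg (cy a ha))) _ (hTS (cT hg (cy a ha)))] at h6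
      obtain ⟨k, hk⟩ := isPGroup_iff_mem.1 h.isP _ (hTS (cT hg (cy a ha)))
      exact (hl.mem_ker.1 (H92.mem_of_pow_mem hk (n := 2) (fun h2 => hp2
        ((Nat.prime_dvd_prime_iff_eq hp.out Nat.prime_two).1 h2)) (hl.mem_ker.2
          ⟨S.pow_mem (hTS (cT hg (cy a ha))) 2, by rwa [pow_two]⟩))).2
    · have h9 := (h5 e he).trans (h5 a ha).symm
      rw [two x hx hc' _ (hgg _ (S.inv_mem (hA.1 he))) h8 _ (hgg _ (S.inv_mem haS)) hai,
        mul_left_inj] at h9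
      rwa [h9, mul_eq_right] at h6
  have h8 := h5 a ha
  rw [h7, one_mul] at h8
  exact hx' (const x hx hc' _ (hgg _ (S.inv_mem haS)) hai h8)

/-- The exceptional case of the Glauberman–Niles transfer theorem. -/
theorem hard (h : HG p q L S M) (hp2 : p ≠ 2) {D : Subgroup X} (hD : ⁅S, S⁆ ≤ D)
    (hM : ∀ m ∈ L, m ∈ M → ∀ x ∈ pCoreOf p L, x⁻¹ * (m * x * m⁻¹) ∈ D) :
    ∀ g ∈ L, ∀ x ∈ pCoreOf p L, x⁻¹ * (g * x * g⁻¹) ∈ D := by
  obtain ⟨Y, _, l, hl, hk, -⟩ := H92.exists_ab_quot hD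
  have key : ∀ g ∈ L, ∀ x ∈ pCoreOf p L,
      (x⁻¹ * (g * x * g⁻¹) ∈ D ↔ l (g⁻¹⁻¹ * x * g⁻¹) = l x) := fun g hg x hx => by
    have h1 := h.Q_le (H24.conj_mem_of_mem_normalizer (h.normQ hg) hx)
    have h2 := h.Q_le hx
    rw [← hk _ (S.mul_mem (S.inv_mem h2) h1), hl _ (S.inv_mem h2) _ h1, hl.inv h2,
      inv_mul_eq_one, inv_inv, eq_comm]
  exact fun g hg x hx => (key g hg x hx).2 ((hard_aux h hp2 hl (fun m hm hm' x hx => by
    simpa using (key m⁻¹ (L.inv_mem hm) x hx).1 (hM _ (L.inv_mem hm) (M.inv_mem hm') x hx)) hx).2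
      _ (L.inv_mem hg))

theorem hard_eq_defs : True := by
  have := @cst.eq_1.{0, 0}
  trivial

end H90.GNT
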