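import Mathlib
import Cfsg.Agent.Base
import Cfsg.Agent.Lib.GNT.Gen
import Cfsg.Agent.Lib.GNT.Hard
import Cfsg.Agent.Lib.Push.GN4

/-! The local form of the transfer theorem of Glauberman and Niles, `p` odd (helper90). -/

set_option autoImplicit false
set_option linter.unusedSectionVars false
set_option linter.style.haveILetI false

namespace H90.GNT

open Subgroup H69 H24 H68.Push Cfsg
open scoped commutatorElement

variable {X : Type*} [Group X]

open Classical in
/-- The characteristic subgroup `K(S)`. -/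
noncomputable def kk (p : ℕ) (S : Subgroup X) : Subgroup X :=
  if phiJoin p (jb S) = ⊥ then jb S else phiJoin p (jb S)

variable [Finite X] {p : ℕ}

theorem phiJoin_le (S : Subgroup X) : phiJoin p S ≤ S :=
  phiJoin_le_iff.2 fun _ h => (map_subtype_le _).trans h.1.1.1

theorem kk_le_jb (S : Subgroup X) : kk p S ≤ jb S := by
  unfold kk; split_ifs
  exacts [le_rfl, phiJoin_le _]

theorem kk_le (S : Subgroup X) : kk p S ≤ S := (kk_le_jb S).trans (jb_le S)

theorem kk_ne_bot {S : Subgroup X} (h : S ≠ ⊥) : kk p S ≠ ⊥ := by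
  unfold kk; split_ifs with h1
  exacts [jb_ne_bot h, h1]

theorem map_kk {Y : Type*} [Group Y] [Finite Y] {f : X →* Y} (hf : Function.Injective f)
    (S : Subgroup X) : (kk p S).map f = kk p (S.map f) := by
  unfold kk
  rw [← map_jb hf, ← map_phiJ hf, map_eq_bot_iff_of_injective _ hf]
  split_ifs <;> rfl

theorem kk_eq_of_le {S T : Subgroup X} (h1 : jb S ≤ T) (h2 : T ≤ S) : kk p T = kk p S := by
  unfold kk; rw [jb_eq_of_le h1 h2]

theorem normalizer_jb_le (S : Subgroup X) : 𝐍(jb S) ≤ 𝐍(kk p S) := by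
  unfold kk; split_ifs
  exacts [le_rfl, normalizer_le_phiJoin p _]

theorem Z_le_jb (S : Subgroup X) : S ⊓ 𝐂(S) ≤ jb S :=
  inf_le_inf_left _ (H69.centralizer_anti (inf_le_left.trans (thompsonSubgroupAOf_le S)))

theorem mem_normalizer_jb {S : Subgroup X} {g : X} (h : jb S ^ᶜ g ≤ S) : g ∈ 𝐍(jb S) := by
  have h1 : thompsonSubgroupAOf S ^ᶜ g = thompsonSubgroupAOf S := cj_eq_of_cj_le
    (cj_le_iff.2 (thompsonSubgroupAOf_le_iff.2 fun A hA => cj_le_iff.1 (le_thompsonSubgroupAOf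
      (mem_maxAb_of_card_le hA ((cj_mono g ((le_thompsonSubgroupAOf hA).trans (J_le_jb S))).trans h)
        ((isMulCommutative_map_iff (MulAut.conj g).injective).2 hA.2.1) (card_cj A g).ge))))
  refine mem_normalizer_of_cj_le (le_inf h ((cj_mono g inf_le_right).trans ?_))
  rw [cj_centralizer, centerThompsonAOf_def, cj_inf, cj_centralizer, h1]

variable [hp : Fact p.Prime] {q : ℕ} {L S M D : Subgroup X}

theorem hg_of (h : PU p q L S M) (hY : ¬ L ≤ 𝐍(S ⊓ 𝐂(S))) (hJ : S ≤ 𝐂(centerThompsonAOf S))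
    (h0 : phiJoin p S = ⊥) : HG p q L S M := by
  obtain ⟨R, hR⟩ := exists_mclmax p S
  have h2 := le_phiJoin hR
  rw [h0, H5.map_frattini_le_iff (h.isP.to_le hR.1.1.1)] at h2
  obtain ⟨Q, hQ, rfl⟩ := hR.1.exists_sub
  have h3 : IsElementaryAbelian p (Q.map S.subtype) := EA.iff_mem.2
    ⟨fun a ha b hb => le_centralizer_of_commutator_eq_bot (le_bot_iff.1 h2.1) hb a ha, h2.2⟩
  have h4 := H70.CD.MCL.iff_maxAb hQ ((EA.map_iff S.subtype_injective).1 h3).1
  have h5 : ∀ A ∈ maxAbelianSubgroups S, A.map S.subtype ∈ maxAb S := fun A hA =>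
    image_maxAbelianSubgroups S ▸ ⟨A, hA, rfl⟩
  have h6 := h5 Q ((h4 Q).1 hQ)
  refine ⟨h, ?_, fun A hA => ?_, EA.mono h3 ((inf_le_inf_left _ (H69.centralizer_anti h6.1)).trans
    (inf_centralizer_of_mem_maxAb h6).le), hY⟩
  · have h7 := map_mono (f := S.subtype) (H70.CD.CL.jtilde_le (H70.CD.CL.sup_thompson hQ.1) le_sup_right)
    rw [map_jt S.subtype_injective, map_top_subtype, Subgroup.map_sup] at h7
    exact (le_inf le_rfl hJ).trans (h7.trans (sup_le (le_thompsonSubgroupAOf h6) le_rfl))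
  · rw [← image_maxAbelianSubgroups] at hA
    obtain ⟨A, hA, rfl⟩ := hA
    exact clin_subtype_iff.2 ((h4 A).2 hA).1

/-- `H`-fusion in `S` is trivial modulo `D`. -/
def Fus (S D H : Subgroup X) : Prop :=
  ∀ g ∈ H, ∀ x ∈ S, g * x * g⁻¹ ∈ S → x⁻¹ * (g * x * g⁻¹) ∈ D

theorem Fus.mono {S T H K : Subgroup X} (h : Fus S D H) (h1 : T ≤ S) (h2 : K ≤ H) : Fus T D K :=
  fun g hg x hx hx' => h g (h2 hg) x (h1 hx) (h1 hx')

/-- The elements of `L` acting trivially on `O_p(L)` modulo `D`. -/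
def mm (p : ℕ) (L D : Subgroup X) : Subgroup X where
  carrier := {g | g ∈ L ∧ ∀ x ∈ pCoreOf p L, x⁻¹ * (g * x * g⁻¹) ∈ D}
  one_mem' := ⟨L.one_mem, fun x _ => by simp⟩
  mul_mem' := fun {a b} ha hb => ⟨L.mul_mem ha.1 hb.1, fun x hx => by
    have := D.mul_mem (hb.2 x hx) (ha.2 _ (H69.conj_mem_of_mem_normalizer
      (H70.le_normalizer_pCoreOf p L hb.1) hx))
    convert this using 1
    group⟩
  inv_mem' := fun {a} ha => ⟨L.inv_mem ha.1, fun x hx => by
    have := D.inv_mem (ha.2 _ (H69.conj_mem_of_mem_normalizer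
      (H70.le_normalizer_pCoreOf p L (L.inv_mem ha.1)) hx))
    convert this using 1
    group⟩

theorem Fus.le_mm {H : Subgroup X} (hS : IsSylowIn p S L) (h : Fus S D (L ⊓ H)) :
    L ⊓ H ≤ mm p L D := fun g hg => ⟨hg.1, fun x hx => h g hg x (hS.pCoreOf_le hx)
      (hS.pCoreOf_le (H69.conj_mem_of_mem_normalizer (H70.le_normalizer_pCoreOf p L hg.1) hx))⟩

/-- The local theorem. -/
theorem loc_main (hp2 : p ≠ 2) (n : ℕ) : ∀ L S : Subgroup X, Nat.card L ≤ n → IsSylowIn p S L →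
    H70.CharP p L → ⁅S, S⁆ ≤ D → Fus S D (L ⊓ 𝐂(S ⊓ 𝐂(S))) → Fus S D (L ⊓ 𝐍(kk p S)) →
    L ≤ mm p L D := by
  induction n with
  | zero => exact fun L _ h => absurd h (Nat.card_pos (α := L)).not_ge
  | succ n ih =>
  intro L S hn hS hc hD h1 h2
  by_contra hne
  have hQ := H70.le_normalizer_pCoreOf p L
  have ih' : ∀ H T : Subgroup X, H ≤ L → H ≠ L → IsSylowIn p T H → jb S ≤ T → T ≤ S →
      H70.CharP p H → H ≤ mm p H D := fun H T a1 a2 a3 a4 a5 a6 =>
    ih H T (Nat.lt_succ_iff.1 ((lt_of_le_of_ne (card_le_of_le a1)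
      fun e => a2 (eq_of_le_of_card_ge a1 e.ge)).trans_le hn)) a3 a6
      ((commutator_mono a5 a5).trans hD) (h1.mono a5 (inf_le_inf a1 (H69.centralizer_anti
        (le_inf ((Z_le_jb S).trans a4) (inf_le_right.trans (H69.centralizer_anti a5))))))
      (h2.mono a5 (inf_le_inf a1 (by rw [kk_eq_of_le a4 a5])))
  have hSM : S ≤ mm p L D := fun s hs => ⟨hS.le hs, fun x hx => by
    have := hD (commutator_mem_commutator (S.inv_mem (hS.pCoreOf_le hx)) hs)
    convert this using 1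
    rw [commutatorElement_def]; group⟩
  have hB : L ⊓ 𝐍(jb S) ≤ mm p L D :=
    (inf_le_inf_left _ (normalizer_jb_le S)).trans (h2.le_mm hS)
  have hm : BMin p L S (mm p L D) := by
    refine ⟨hS, hc, hSM, hne, fun K a1 a2 a3 => ?_, h1.le_mm hS, hB⟩
    obtain ⟨T, hT, a4⟩ := exists_isSylowIn_le (hS.isP.to_le (sup_le (jb_le S) hS.pCoreOf_le)) a1
    obtain ⟨g, hg, a5⟩ := hS.exists_cj_le hT.isP (hT.le.trans a2)
    have a6 := mem_normalizer_jb ((cj_mono g (le_sup_left.trans a4)).trans a5)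
    have a7 : pCoreOf p L ≤ K ^ᶜ g :=
      (cj_eq_of_mem_normalizer (hQ hg)).ge.trans (cj_mono g (le_sup_right.trans a1))
    have a8 := cj_le_of_mem a2 hg
    have a9 := ih' (K ^ᶜ g) (T ^ᶜ g) a8 (fun e => a3 (by
      rw [cj_eq_iff.1 e, cj_eq_of_mem (L.inv_mem hg)])) (hT.cj g)
      ((cj_eq_of_mem_normalizer a6).ge.trans (cj_mono g (le_sup_left.trans a4))) a5
      (hc.of_pCoreOf_le a8 a7)
    have a10 : K ^ᶜ g ≤ mm p L D := fun k hk => ⟨a8 hk, fun x hx => (a9 hk).2 x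
      (H70.le_pCoreOf (H70.isPGroup_pCoreOf p L) a7 (a8.trans hQ) hx)⟩
    exact (cj_le_iff.1 a10).trans (cj_eq_of_mem (inv_mem (hB ⟨hg, a6⟩))).le
  obtain ⟨q, hu⟩ := hm.pu hp2
  have hY : ¬ L ≤ 𝐍(S ⊓ 𝐂(S)) := fun h3 =>
    hne ((le_inf le_rfl (hu.le_centralizer_of_normal inf_le_right h3)).trans hm.cZ)
  obtain ⟨A, hA, hAQ⟩ := hm.exists_off
  obtain ⟨-, -, b1, b2, -⟩ := hu.baumann_struct (e := 0) (by rwa [maxEA_zero]) hAQ
    (le_normalizer_ncl _ L) hm.V_le (ea_zero_iff.2 (isMulCommutative_of_le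
      (isMulCommutative_inf_centralizer _) hm.V_le)) hm.not_res rfl rfl
  rw [omegaOne_zero, centerThompsonOf_zero] at b1 b2
  change S ⊓ ncl (jb S) L = jb S at b1
  change L = ncl (jb S) L ⊔ _ at b2
  have b3 : ncl (jb S) L ≤ L := ncl_le ((jb_le S).trans hS.le) Subgroup.le_normalizer
  have b4 := le_normalizer_ncl (jb S) L
  by_cases b5 : ncl (jb S) L = L
  · rw [b5, inf_eq_left.2 hS.le] at b1
    have hJ : S ≤ 𝐂(centerThompsonAOf S) := b1.le.trans inf_le_right
    by_cases b6 : phiJoin p S = ⊥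
    · exact hne fun g hg => ⟨hg, hard (hg_of hu hY hJ b6) hp2 hD (fun m _ hm => hm.2) g hg⟩
    · refine hne ((le_inf le_rfl ?_).trans (h2.le_mm hS))
      unfold kk
      rw [← b1, if_neg b6]
      exact hu.phiJoin_normal hY hJ
  · have b6 := ih' _ _ b3 b5 (by simpa only [b1] using hS.inf_normal b3 b4) le_rfl (jb_le S) (hc.of_normal b3 b4)
    have b7 : 𝐑(p, L) ≤ ncl (jb S) L := by
      conv_lhs => rw [b2]
      exact res_sup_le (H70.isPGroup_pCoreOf p L) ((H70.pCoreOf_le p L).trans b4)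
    have b8 : ⁅pCoreOf p L, 𝐑(p, L)⁆ ≤ pCoreOf p (ncl (jb S) L) := by
      have := H69.commutator_le_left_of_le_normalizer ((res_le (p := p) L).trans hQ)
      refine (le_inf this ((commutator_mono le_rfl b7).trans (commutator_le_right_of_le_normalizer
        ((H70.pCoreOf_le p L).trans b4)))).trans (H70.le_pCoreOf ((H70.isPGroup_pCoreOf p L).to_le
          inf_le_left) inf_le_right (le_normalizer_inf (b3.trans hQ) Subgroup.le_normalizer))
    have b9 : ⁅pCoreOf p L, 𝐑(p, L)⁆ ≤ D := by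
      rw [← commutator_res_res (H70.isPGroup_pCoreOf p L) hQ]
      refine commutator_le.2 fun x hx g hg => ?_
      have := (b6 (b7 hg)).2 _ (inv_mem (b8 hx))
      convert this using 1
      rw [commutatorElement_def]; group
    refine hne (hS.eq_of_res_le hSM fun g hg => ⟨res_le L hg, fun x hx => ?_⟩)
    have := b9 (commutator_mem_commutator (inv_mem hx) hg)
    convert this using 1
    rw [commutatorElement_def]; group

theorem local_eq_defs : True := by
  have := @kk.eq_1.{0}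
  have := @Fus.eq_1.{0}
  have := @mm.eq_1.{0}
  trivial

end H90.GNT
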